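import Cfsg.Agent.OrdDiv.Main

/-!
# The 2-part of the order of a classical group in characteristic 2 (helper338)
-/

set_option autoImplicit false

namespace Cfsg.Agent.H338.CharTwoOrd

open Cfsg.Agent.OrdDiv

theorem exp_eq {d c k m e : ℕ} (hd : Odd d) (hm : Odd m) (h : d * c = 2 ^ k * m)
    (h1 : 2 ^ e ∣ c) (h2 : ¬ 2 ^ (e + 1) ∣ c) : k = e := by
  have hm2 : Nat.Coprime (2 ^ e) m := Nat.Coprime.pow_left _ ((Nat.coprime_two_left).2 hm)
  have h3 : 2 ^ e ∣ 2 ^ k := by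
    have h4 : 2 ^ e ∣ 2 ^ k * m := by rw [← h]; exact Dvd.dvd.mul_left h1 d
    exact hm2.dvd_of_dvd_mul_right h4
  have h4 : e ≤ k := (Nat.pow_dvd_pow_iff_le_right (by norm_num)).1 h3
  by_contra hne
  have h5 : 2 ^ (e + 1) ∣ d * c := by
    rw [h]
    exact Dvd.dvd.mul_right (pow_dvd_pow 2 (by omega)) m
  have hd2 : Nat.Coprime (2 ^ (e + 1)) d := Nat.Coprime.pow_left _ ((Nat.coprime_two_left).2 hd)
  exact h2 (hd2.dvd_of_dvd_mul_left h5)

theorem odd_sub {q k : ℕ} (hq : Even q) (hq0 : 0 < q) (hk : k ≠ 0) : Odd (q ^ k - 1) := by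
  have h1 : Even (q ^ k) := hq.pow_of_ne_zero hk
  have h2 : 1 ≤ q ^ k := Nat.one_le_pow _ _ hq0
  obtain ⟨m, hm⟩ := h1
  exact ⟨m - 1, by omega⟩

theorem odd_add {q k : ℕ} (hq : Even q) (hk : k ≠ 0) : Odd (q ^ k + 1) :=
  (hq.pow_of_ne_zero hk).add_one

theorem odd_prod (f : ℕ → ℕ) (n : ℕ) (h : ∀ i < n, Odd (f i)) : Odd (((List.range n).map f).prod) := by
  rw [prod_list]
  apply Finset.prod_induction
  · intro a b ha hb; exact ha.mul hb
  · exact odd_one
  · intro i hi; exact h i (Finset.mem_range.1 hi)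

theorem odd_prB {q m : ℕ} (hq : Even q) (hq0 : 0 < q) : Odd (prB q m) :=
  odd_prod _ _ fun i _ => odd_sub hq hq0 (by omega)

theorem odd_prU {q n : ℕ} (hq : Even q) (hq0 : 0 < q) : Odd (prU q n) := by
  apply odd_prod
  intro i _
  split_ifs
  · exact odd_add hq (by omega)
  · exact odd_sub hq hq0 (by omega)

theorem glN_eq {q : ℕ} (n : ℕ) : glN n q =
    q ^ (n * (n - 1) / 2) * ((List.range n).map fun i => q ^ (n - i) - 1).prod := by
  unfold glN
  rw [prod_list, prod_list, ← Finset.sum_range_id, ← Finset.prod_pow_eq_pow_sum,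
    ← Finset.prod_mul_distrib]
  apply Finset.prod_congr rfl
  intro i hi
  rw [Finset.mem_range] at hi
  rw [Nat.mul_sub, mul_one, ← pow_add]
  congr 2
  omega

theorem odd_glN {q n : ℕ} (hq : Even q) (hq0 : 0 < q) :
    Odd (((List.range n).map fun i => q ^ (n - i) - 1).prod) :=
  odd_prod _ _ fun i hi => odd_sub hq hq0 (by omega)

theorem odd_of_dvd_sub {q d k : ℕ} (hq : Even q) (hq0 : 0 < q) (hk : k ≠ 0) (h : d ∣ q ^ k - 1) :
    Odd d := Odd.of_dvd_nat (odd_sub hq hq0 hk) h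

theorem odd_of_dvd_add {q d k : ℕ} (hq : Even q) (hk : k ≠ 0) (h : d ∣ q ^ k + 1) :
    Odd d := Odd.of_dvd_nat (odd_add hq hk) h

end Cfsg.Agent.H338.CharTwoOrd
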