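import Cfsg.Agent.H338.RingCL
import Cfsg.Agent.H338.AltLift
import Cfsg.Prelude.Def_Classical

/-!
# Classical groups in odd characteristic: elementary abelian 2-subgroups (helper338)
-/

set_option autoImplicit false

namespace Cfsg.Agent.H338.ClassicalOdd

open Cfsg.Agent.H338.RingCL Cfsg.Agent.H338.AltLift Subgroup
open scoped Matrix

/-- The hypotheses on a subgroup `V`. -/
structure Hyp {K : Type*} [Group K] (V : Subgroup K) (p : ℕ) (y : K) : Prop where
  sq : ∀ v ∈ V, v * v = 1
  comm : ∀ a ∈ V, ∀ b ∈ V, a * b = b * a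
  ne : V ≠ ⊥
  prime : p.Prime
  odd : p ≠ 2
  pow : y ^ p = 1
  norm : ∀ v ∈ V, y * v * y⁻¹ ∈ V
  fix : ∀ v ∈ V, y * v = v * y → v = 1
  irr : ∀ W : Subgroup K, W ≤ V → (∀ g ∈ normalizer (V : Set K), ∀ w ∈ W, g * w * g⁻¹ ∈ W) →
      W = ⊥ ∨ W = V
  noform : ¬ ∃ β : V → V → ℤˣ, (∀ a b c, β (a * b) c = β a c * β b c) ∧
      (∀ a b c, β a (b * c) = β a b * β a c) ∧ (∀ a, β a a = 1) ∧
      (∀ (g : K) (_ : g ∈ normalizer (V : Set K)) (a b a' b' : V), (a' : K) = g * a * g⁻¹ →
        (b' : K) = g * b * g⁻¹ → β a' b' = β a b) ∧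
      (∀ a, (∀ b, β a b = 1) → a = 1)

theorem of_quot {F R : Type*} [Field F] [Ring R] [Algebra F R] (h2 : (2 : F) ≠ 0)
    {H : Type*} [Group H] [Finite H] (θ : H →* Rˣ) (hθ : Function.Injective θ)
    (I : Subgroup Rˣ) (hI : Closed I) (hHI : ∀ h, θ h ∈ I)
    (hn : ∀ g ∈ I, ∀ h, g * θ h * g⁻¹ ∈ θ.range)
    {K : Type*} [Group K] [Finite K] (e : K ≃* H ⧸ center H) {V : Subgroup K} {p : ℕ} {y : K}
    (hyp : Hyp V p y) : 2 ^ (p - 1) ≤ Nat.card (centralizer (V : Set K)) := by
  let i : H ≃* θ.range := MonoidHom.ofInjective hθ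
  have : Finite θ.range := Finite.of_surjective i i.surjective
  let π : θ.range →* K :=
    e.symm.toMonoidHom.comp ((QuotientGroup.mk' (center H)).comp i.symm.toMonoidHom)
  have hπ : Function.Surjective π :=
    e.symm.surjective.comp ((QuotientGroup.mk'_surjective _).comp i.symm.surjective)
  have hker : ∀ x : θ.range, π x = 1 → ∀ l : θ.range, x * l = l * x := by
    intro x hx l
    have h1 : e.symm (QuotientGroup.mk' (center H) (i.symm x)) = 1 := hx
    rw [MulEquiv.map_eq_one_iff, ← MonoidHom.mem_ker, QuotientGroup.ker_mk'] at h1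
    have h3 := (mem_center_iff.1 h1) (i.symm l)
    have h4 : i (i.symm l * i.symm x) = i (i.symm x * i.symm l) := by rw [h3]
    rw [map_mul, map_mul, i.apply_symm_apply, i.apply_symm_apply] at h4
    exact h4.symm
  have hlift : ∀ a b : θ.range, π a ∈ V → π b ∈ V → a * b = b * a := by
    by_contra hcon
    exact hyp.noform (exists_form π hπ hker V hyp.comm hyp.sq hyp.irr hcon)
  exact main (F := F) h2 I θ.range hI (by rintro _ ⟨h, rfl⟩; exact hHI h)
    (by rintro g hg _ ⟨h, rfl⟩; exact hn g hg h) π hπ hker V hyp.sq hyp.ne hyp.prime hyp.odd y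
    hyp.pow hyp.norm hyp.fix hlift

section families

variable {F : Type*} [Field F] [Finite F] (h2 : (2 : F) ≠ 0)
  {K : Type*} [Group K] [Finite K] {V : Subgroup K} {p : ℕ} {y : K} (hyp : Hyp V p y)

include h2 hyp

theorem psl {n : ℕ} (e : K ≃* Matrix.ProjectiveSpecialLinearGroup (Fin n) F) :
    2 ^ (p - 1) ≤ Nat.card (centralizer (V : Set K)) := by
  have : Finite (Matrix (Fin n) (Fin n) F) := inferInstanceAs (Finite (Fin n → Fin n → F))
  have : Finite (Matrix.SpecialLinearGroup (Fin n) F) := Subtype.finite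
  refine of_quot (R := Matrix (Fin n) (Fin n) F) h2
    (Matrix.SpecialLinearGroup.toGL (n := Fin n) (R := F)) ?_ ⊤ closed_top (fun _ => trivial)
    ?_ e hyp
  · intro a b hab
    exact Subtype.ext (congrArg Units.val hab)
  · intro g _ h
    have h3 : Matrix.det ((g * Matrix.SpecialLinearGroup.toGL h * g⁻¹ :
        (Matrix (Fin n) (Fin n) F)ˣ) : Matrix (Fin n) (Fin n) F) = 1 := by
      rw [Units.val_mul, Units.val_mul, Matrix.det_mul, Matrix.det_mul, mul_right_comm,
        ← Matrix.det_mul, ← Units.val_mul, mul_inv_cancel, Units.val_one, Matrix.det_one, one_mul]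
      exact h.2
    exact ⟨⟨_, h3⟩, Units.ext rfl⟩

theorem psp {m : ℕ} (e : K ≃* Cfsg.PSp m F) :
    2 ^ (p - 1) ≤ Nat.card (centralizer (V : Set K)) := by
  have : Finite (Matrix (Fin m ⊕ Fin m) (Fin m ⊕ Fin m) F) :=
    inferInstanceAs (Finite (Fin m ⊕ Fin m → Fin m ⊕ Fin m → F))
  have : Finite (Matrix.symplecticGroup (Fin m) F) := Subtype.finite
  let θ : Matrix.symplecticGroup (Fin m) F →* (Matrix (Fin m ⊕ Fin m) (Fin m ⊕ Fin m) F)ˣ :=
    MonoidHom.toHomUnits (Matrix.symplecticGroup (Fin m) F).subtype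
  let J := Matrix.J (Fin m) F
  let I : Subgroup (Matrix (Fin m ⊕ Fin m) (Fin m ⊕ Fin m) F)ˣ := θ.range
  have hmem : ∀ g : (Matrix (Fin m ⊕ Fin m) (Fin m ⊕ Fin m) F)ˣ, g ∈ I ↔
      (g : Matrix (Fin m ⊕ Fin m) (Fin m ⊕ Fin m) F) * J * (g : Matrix _ _ F)ᵀ = J := by
    intro g
    constructor
    · rintro ⟨h, rfl⟩
      exact h.2
    · intro h
      exact ⟨⟨g, h⟩, Units.ext rfl⟩
  refine of_quot (R := Matrix (Fin m ⊕ Fin m) (Fin m ⊕ Fin m) F) h2 θ ?_ I ?_ (fun h => ⟨h, rfl⟩)
    ?_ e hyp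
  · intro a b hab
    exact Subtype.ext (congrArg Units.val hab)
  · intro E hE u hu hA
    rw [hmem]
    let A : AddSubgroup (Matrix (Fin m ⊕ Fin m) (Fin m ⊕ Fin m) F) :=
      { carrier := {M | M * J = J * Mᵀ}
        zero_mem' := by
          show (0 : Matrix _ _ F) * J = J * (0 : Matrix _ _ F)ᵀ
          rw [zero_mul, Matrix.transpose_zero, mul_zero]
        add_mem' := by
          intro a b (ha : a * J = J * aᵀ) (hb : b * J = J * bᵀ)
          show (a + b) * J = J * (a + b)ᵀ
          rw [add_mul, Matrix.transpose_add, mul_add, ha, hb]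
        neg_mem' := by
          intro a (ha : a * J = J * aᵀ)
          show (-a) * J = J * (-a)ᵀ
          rw [neg_mul, Matrix.transpose_neg, mul_neg, ha] }
    have huA : (u : Matrix _ _ F) * J = J * (u : Matrix (Fin m ⊕ Fin m) (Fin m ⊕ Fin m) F)ᵀ := by
      apply hA A
      · intro x (hx : (x + x) * J = J * (x + x)ᵀ)
        show x * J = J * xᵀ
        rw [add_mul, Matrix.transpose_add, mul_add, ← two_smul F, ← two_smul F (J * xᵀ)] at hx
        exact smul_right_injective _ h2 hx
      · intro g hg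
        show (g : Matrix _ _ F) * J = J * (g : Matrix _ _ F)ᵀ
        have h3 := (hmem g).1 (hE g hg).1
        have h4 : (g : Matrix (Fin m ⊕ Fin m) (Fin m ⊕ Fin m) F) * g = 1 := by
          rw [← Units.val_mul, (hE g hg).2]; rfl
        generalize (g : Matrix (Fin m ⊕ Fin m) (Fin m ⊕ Fin m) F) = M at h3 h4 ⊢
        calc M * J = M * (M * J * Mᵀ) := by rw [h3]
          _ = (M * M) * J * Mᵀ := by simp only [mul_assoc]
          _ = J * Mᵀ := by rw [h4, one_mul]
    have h4 : (u : Matrix (Fin m ⊕ Fin m) (Fin m ⊕ Fin m) F) * u = 1 := by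
      rw [← Units.val_mul, hu]; rfl
    rw [mul_assoc, ← huA, ← mul_assoc, h4, one_mul]
  · rintro g hg h
    exact I.mul_mem (I.mul_mem hg ⟨h, rfl⟩) (I.inv_mem hg)

omit hyp [Finite F] in
/-- Isometry groups of biadditive forms are closed. -/
theorem closed_preserving {ι : Type} [Fintype ι] [DecidableEq ι] (f : (ι → F) → (ι → F) → F)
    (hf1 : ∀ a b c, f (a + b) c = f a c + f b c) (hf2 : ∀ a b c, f a (b + c) = f a b + f a c) :
    Closed (Cfsg.preserving (Units.coeHom (Matrix ι ι F)) f) := by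
  have hz1 : ∀ c, f 0 c = 0 := fun c => by
    have := hf1 0 0 c
    rw [add_zero] at this
    exact (left_eq_add.1 this)
  have hz2 : ∀ c, f c 0 = 0 := fun c => by
    have := hf2 c 0 0
    rw [add_zero] at this
    exact (left_eq_add.1 this)
  have hn1 : ∀ a c, f (-a) c = - f a c := fun a c => by
    have := hf1 a (-a) c
    rw [add_neg_cancel, hz1] at this
    exact (neg_eq_of_add_eq_zero_right this.symm).symm
  have hn2 : ∀ a c, f a (-c) = - f a c := fun a c => by
    have := hf2 a c (-c)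
    rw [add_neg_cancel, hz2] at this
    exact (neg_eq_of_add_eq_zero_right this.symm).symm
  intro E hE u hu hA
  let A : AddSubgroup (Matrix ι ι F) :=
    { carrier := {M | ∀ a b, f (M *ᵥ a) b = f a (M *ᵥ b)}
      zero_mem' := by
        intro a b
        rw [Matrix.zero_mulVec, Matrix.zero_mulVec, hz1, hz2]
      add_mem' := by
        intro M N hM hN a b
        rw [Matrix.add_mulVec, Matrix.add_mulVec, hf1, hf2, hM, hN]
      neg_mem' := by
        intro M hM a b
        rw [Matrix.neg_mulVec, Matrix.neg_mulVec, hn1, hn2, hM] }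
  have huA : (u : Matrix ι ι F) ∈ A := by
    apply hA A
    · intro x hx a b
      have h3 := hx a b
      rw [Matrix.add_mulVec, Matrix.add_mulVec, hf1, hf2, ← two_mul, ← two_mul] at h3
      exact mul_left_cancel₀ h2 h3
    · intro g hg a b
      have h3 := (hE g hg).1 (a) ((g : Matrix ι ι F) *ᵥ b)
      have h4 : (g : Matrix ι ι F) * g = 1 := by
        rw [← Units.val_mul, (hE g hg).2]; rfl
      rw [Units.coeHom_apply, Matrix.mulVec_mulVec, h4, Matrix.one_mulVec] at h3
      exact h3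
  intro a b
  have h4 : (u : Matrix ι ι F) * u = 1 := by
    rw [← Units.val_mul, hu]; rfl
  rw [Units.coeHom_apply, huA, Matrix.mulVec_mulVec, h4, Matrix.one_mulVec]

theorem psu {n q : ℕ} (hq : ∀ a b : F, (a + b) ^ q = a ^ q + b ^ q) (e : K ≃* Cfsg.PSU n F q) :
    2 ^ (p - 1) ≤ Nat.card (centralizer (V : Set K)) := by
  have : Finite (Matrix (Fin n) (Fin n) F) := inferInstanceAs (Finite (Fin n → Fin n → F))
  have : Finite (Matrix.SpecialLinearGroup (Fin n) F) := Subtype.finite
  have hcl : Closed (Cfsg.preserving (Units.coeHom (Matrix (Fin n) (Fin n) F))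
      (Cfsg.hermForm n F q)) := by
    apply closed_preserving h2
    · intro a b c
      unfold Cfsg.hermForm
      rw [← Finset.sum_add_distrib]
      exact Finset.sum_congr rfl fun i _ => by rw [Pi.add_apply, add_mul]
    · intro a b c
      unfold Cfsg.hermForm
      rw [← Finset.sum_add_distrib]
      exact Finset.sum_congr rfl fun i _ => by rw [Pi.add_apply, hq, mul_add]
  refine of_quot (R := Matrix (Fin n) (Fin n) F) h2
    ((Matrix.SpecialLinearGroup.toGL (n := Fin n) (R := F)).comp (Cfsg.SU n F q).subtype) ?_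
    (Cfsg.preserving (Units.coeHom (Matrix (Fin n) (Fin n) F)) (Cfsg.hermForm n F q)) hcl
    (fun h => h.2) ?_ e hyp
  · intro a b hab
    exact Subtype.ext (Subtype.ext (congrArg Units.val hab))
  · intro g hg h
    have h3 : Matrix.det ((g * Matrix.SpecialLinearGroup.toGL (h : Matrix.SpecialLinearGroup
        (Fin n) F) * g⁻¹ : (Matrix (Fin n) (Fin n) F)ˣ) : Matrix (Fin n) (Fin n) F) = 1 := by
      rw [Units.val_mul, Units.val_mul, Matrix.det_mul, Matrix.det_mul, mul_right_comm,
        ← Matrix.det_mul, ← Units.val_mul, mul_inv_cancel, Units.val_one, Matrix.det_one, one_mul]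
      exact h.1.2
    have h4 : g * Matrix.SpecialLinearGroup.toGL (h : Matrix.SpecialLinearGroup (Fin n) F) * g⁻¹ ∈
        Cfsg.preserving (Units.coeHom (Matrix (Fin n) (Fin n) F)) (Cfsg.hermForm n F q) :=
      mul_mem (mul_mem hg h.2) (inv_mem hg)
    exact ⟨⟨⟨_, h3⟩, h4⟩, Units.ext rfl⟩

theorem pomega {ι : Type} [Fintype ι] [DecidableEq ι] (Q : (ι → F) → F)
    (hf1 : ∀ a b c, Q (a + b + c) - Q (a + b) - Q c = (Q (a + c) - Q a - Q c) + (Q (b + c) - Q b - Q c))
    (hQ : ∀ a, Q (a + a) = 4 * Q a) (e : K ≃* Cfsg.POmega F Q) :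
    2 ^ (p - 1) ≤ Nat.card (centralizer (V : Set K)) := by
  have : Finite (Matrix ι ι F) := inferInstanceAs (Finite (ι → ι → F))
  have : Finite (Matrix.GeneralLinearGroup ι F) := inferInstanceAs (Finite (Matrix ι ι F)ˣ)
  have : Finite (Cfsg.isometryGroup F Q) := Subtype.finite
  have : Finite (Cfsg.Omega F Q) := Subtype.finite
  let f : (ι → F) → (ι → F) → F := fun a b => Q (a + b) - Q a - Q b
  have hsymm : ∀ a b, f a b = f b a := fun a b => by
    show Q (a + b) - Q a - Q b = Q (b + a) - Q b - Q a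
    rw [add_comm]; ring
  have hadd1 : ∀ a b c, f (a + b) c = f a c + f b c := hf1
  have hadd2 : ∀ a b c, f a (b + c) = f a b + f a c := fun a b c => by
    rw [hsymm, hadd1, hsymm b, hsymm c]
  have hcl := closed_preserving h2 f hadd1 hadd2
  have hcl' : Closed (Cfsg.isometryGroup F Q) := by
    intro E hE u hu hA
    have h3 : u ∈ Cfsg.preserving (Units.coeHom (Matrix ι ι F)) f := by
      apply hcl E _ u hu hA
      intro g hg
      refine ⟨?_, (hE g hg).2⟩
      intro a b
      have h4 := (hE g hg).1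
      show Q _ - Q _ - Q _ = Q _ - Q _ - Q _
      rw [← Matrix.mulVec_add]
      have h5 : ∀ a, Q ((Units.coeHom (Matrix ι ι F)) g *ᵥ a) = Q a := fun a => h4 a a
      rw [h5, h5, h5]
    intro a b
    have h4 := h3 a a
    have h5 : ∀ a, f a a = 2 * Q a := fun a => by
      show Q (a + a) - Q a - Q a = _
      rw [hQ]; ring
    rw [h5, h5] at h4
    exact mul_left_cancel₀ h2 h4
  refine of_quot (R := Matrix ι ι F) h2
    ((Cfsg.isometryGroup F Q).subtype.comp (Cfsg.Omega F Q).subtype) ?_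
    (Cfsg.isometryGroup F Q) hcl' (fun h => h.1.2) ?_ e hyp
  · intro a b hab
    exact Subtype.ext (Subtype.ext hab)
  · intro g hg h
    have h3 : (⟨g, hg⟩ : Cfsg.isometryGroup F Q) * h * (⟨g, hg⟩ : Cfsg.isometryGroup F Q)⁻¹ ∈
        Cfsg.Omega F Q := (inferInstance : (commutator (Cfsg.isometryGroup F Q)).Normal).conj_mem _ h.2 _
    exact ⟨⟨_, h3⟩, rfl⟩

theorem pomegaOdd {m : ℕ} (e : K ≃* Cfsg.POmega F (Cfsg.quadFormOdd m F)) :
    2 ^ (p - 1) ≤ Nat.card (centralizer (V : Set K)) := by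
  apply pomega h2 hyp _ _ _ e
  · intro a b c
    unfold Cfsg.quadFormOdd
    simp only [Pi.add_apply, add_mul, mul_add, Finset.sum_add_distrib]
    ring
  · intro a
    unfold Cfsg.quadFormOdd
    simp only [Pi.add_apply, add_mul, mul_add, Finset.sum_add_distrib]
    ring

theorem pomegaPlus {m : ℕ} (e : K ≃* Cfsg.POmega F (Cfsg.quadFormPlus m F)) :
    2 ^ (p - 1) ≤ Nat.card (centralizer (V : Set K)) := by
  apply pomega h2 hyp _ _ _ e
  · intro a b c
    unfold Cfsg.quadFormPlus
    simp only [Pi.add_apply, add_mul, mul_add, Finset.sum_add_distrib]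
    ring
  · intro a
    unfold Cfsg.quadFormPlus
    simp only [Pi.add_apply, add_mul, mul_add, Finset.sum_add_distrib]
    ring

theorem pomegaMinus {m : ℕ} {s t : F} (e : K ≃* Cfsg.POmega F (Cfsg.quadFormMinus m F s t)) :
    2 ^ (p - 1) ≤ Nat.card (centralizer (V : Set K)) := by
  apply pomega h2 hyp _ _ _ e
  · intro a b c
    unfold Cfsg.quadFormMinus
    simp only [Pi.add_apply, add_mul, mul_add, Finset.sum_add_distrib]
    ring
  · intro a
    unfold Cfsg.quadFormMinus
    simp only [Pi.add_apply, add_mul, mul_add, Finset.sum_add_distrib]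
    ring

end families

end Cfsg.Agent.H338.ClassicalOdd
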