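import Mathlib

/-!
# Almost simple groups (helper338)
-/

set_option autoImplicit false

namespace Cfsg.Agent.H338.EmbAut

variable {G : Type*} [Group G]

theorem conjNormal_injective (K : Subgroup G) [K.Normal]
    (hC : ∀ g : G, (∀ k ∈ K, g * k = k * g) → g = 1) :
    Function.Injective (MulAut.conjNormal : G →* MulAut K) := by
  rw [injective_iff_map_eq_one]
  intro g hg
  apply hC
  intro k hk
  have h1 : ((MulAut.conjNormal g ⟨k, hk⟩ : K) : G) = k := by rw [hg]; rfl
  rw [MulAut.conjNormal_apply] at h1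
  exact mul_inv_eq_iff_eq_mul.1 h1

theorem top_of_inner (K : Subgroup G) [K.Normal]
    (hC : ∀ g : G, (∀ k ∈ K, g * k = k * g) → g = 1)
    (hin : ∀ α : MulAut K, ∃ k : K, α = MulAut.conj k) : K = ⊤ := by
  rw [eq_top_iff]
  intro g _
  obtain ⟨k, hk⟩ := hin (MulAut.conjNormal g)
  have h1 : (k : G)⁻¹ * g = 1 := by
    apply hC
    intro x hx
    have h2 : ((MulAut.conjNormal g ⟨x, hx⟩ : K) : G) = k * x * (k : G)⁻¹ := by rw [hk]; rfl
    rw [MulAut.conjNormal_apply] at h2
    have h3 : g * x * g⁻¹ = k * x * (k : G)⁻¹ := h2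
    calc (k : G)⁻¹ * g * x = (k : G)⁻¹ * (g * x * g⁻¹) * g := by group
      _ = x * ((k : G)⁻¹ * g) := by rw [h3]; group
  have h2 : g = k := by
    rw [inv_mul_eq_one] at h1
    exact h1.symm
  rw [h2]
  exact k.2

theorem iso_of_card [Finite G] (K : Subgroup G) [K.Normal]
    (hC : ∀ g : G, (∀ k ∈ K, g * k = k * g) → g = 1)
    {D : Type*} [Group D] [Finite D] (Ω : Subgroup D) [Ω.Normal] (hΩ : Ω.index = 2)
    (hCD : ∀ d : D, (∀ w ∈ Ω, d * w = w * d) → d = 1) (e : K ≃* Ω)
    (hAut : Nat.card (MulAut Ω) = 2 * Nat.card Ω) :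
    Nonempty (G ≃* Ω) ∨ Nonempty (G ≃* D) := by
  have : Finite (MulAut Ω) := Finite.of_injective (fun f : MulAut Ω => (f : Ω → Ω))
    (fun f g h => MulEquiv.ext (congrFun h))
  have hD : Nat.card D = Nat.card (MulAut Ω) := by
    rw [hAut, ← Ω.card_mul_index, hΩ, mul_comm]
  have hd : Function.Bijective (MulAut.conjNormal : D →* MulAut Ω) :=
    (Nat.bijective_iff_injective_and_card _).2 ⟨conjNormal_injective Ω hCD, hD⟩
  let θ : G →* MulAut Ω := (MulAut.congr e).toMonoidHom.comp MulAut.conjNormal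
  have hθ : Function.Injective θ := (MulAut.congr e).injective.comp (conjNormal_injective K hC)
  have h1 : Nat.card G ∣ Nat.card (MulAut Ω) := by
    have h2 : Nat.card G = Nat.card θ.range :=
      Nat.card_congr (MonoidHom.ofInjective hθ).toEquiv
    rw [h2]
    exact Subgroup.card_subgroup_dvd_card _
  have hK : Nat.card K = Nat.card Ω := Nat.card_congr e.toEquiv
  have h2 : K.index ∣ 2 := by
    rw [hAut, ← K.card_mul_index, hK, mul_comm 2] at h1
    exact Nat.dvd_of_mul_dvd_mul_left Nat.card_pos h1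
  rcases (Nat.dvd_prime Nat.prime_two).1 h2 with h | h
  · left
    rw [Subgroup.index_eq_one] at h
    subst h
    exact ⟨Subgroup.topEquiv.symm.trans e⟩
  · right
    have h3 : Nat.card G = Nat.card (MulAut Ω) := by
      rw [hAut, ← K.card_mul_index, hK, h, mul_comm]
    have hb : Function.Bijective θ := (Nat.bijective_iff_injective_and_card _).2 ⟨hθ, h3⟩
    exact ⟨(MulEquiv.ofBijective θ hb).trans (MulEquiv.ofBijective _ hd).symm⟩

end Cfsg.Agent.H338.EmbAut
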