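import Cfsg.Agent.H338.CharTwoOrd

/-!
# Known simple groups with a given 2-part of the order (helper338)
-/

set_option autoImplicit false

namespace Cfsg.Agent.H338.Families

open Cfsg Cfsg.Agent.OrdDiv Cfsg.Agent.H338.CharTwoOrd

universe u

/-- A classical group over a field in which `2 ≠ 0`. -/
def OddCl (S : Type u) [Group S] : Prop :=
  ∃ (F : Type) (_ : Field F) (_ : Fintype F), (2 : F) ≠ 0 ∧
    ((∃ n : ℕ, Nonempty (S ≃* Matrix.ProjectiveSpecialLinearGroup (Fin n) F)) ∨
    (∃ m : ℕ, Nonempty (S ≃* PSp m F)) ∨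
    (∃ n q : ℕ, (∀ a b : F, (a + b) ^ q = a ^ q + b ^ q) ∧ Nonempty (S ≃* PSU n F q)) ∨
    (∃ m : ℕ, Nonempty (S ≃* POmega F (quadFormOdd m F))) ∨
    (∃ m : ℕ, Nonempty (S ≃* POmega F (quadFormPlus m F))) ∨
    (∃ (m : ℕ) (s t : F), Nonempty (S ≃* POmega F (quadFormMinus m F s t))))

/-- A linear group over a field in which `2 ≠ 0`. -/
def OddEx (S : Type u) [Group S] (d : ℕ) : Prop :=
  ∃ (F : Type) (_ : Field F) (_ : Fintype F) (ι : Type) (_ : Fintype ι) (_ : DecidableEq ι),
    (2 : F) ≠ 0 ∧ Fintype.card ι = d ∧ ∃ θ : S →* Matrix.GeneralLinearGroup ι F, Function.Injective θ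

/-- A classical group in characteristic 2 whose order has 2-part `2 ^ e`. -/
def EvenCl (S : Type u) [Group S] (e : ℕ) : Prop :=
  ∃ (F : Type) (_ : Field F) (_ : Fintype F) (f : ℕ),
    ((∃ n : ℕ, 2 ≤ n ∧ Fintype.card F = 2 ^ f ∧ f * (n * (n - 1) / 2) = e ∧
      Nonempty (S ≃* Matrix.ProjectiveSpecialLinearGroup (Fin n) F)) ∨
    (∃ m : ℕ, 2 ≤ m ∧ Fintype.card F = 2 ^ f ∧ f * m ^ 2 = e ∧ Nonempty (S ≃* PSp m F)) ∨
    (∃ n : ℕ, 3 ≤ n ∧ Fintype.card F = (2 ^ f) ^ 2 ∧ f * (n * (n - 1) / 2) = e ∧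
      Nonempty (S ≃* PSU n F (2 ^ f))) ∨
    (∃ m : ℕ, 4 ≤ m ∧ Fintype.card F = 2 ^ f ∧ f * (m * (m - 1)) = e ∧
      Nonempty (S ≃* POmega F (quadFormPlus m F))) ∨
    (∃ (m : ℕ) (s t : F), 4 ≤ m ∧ Fintype.card F = 2 ^ f ∧ f * (m * (m - 1)) = e ∧
      (∀ z₁ z₂ : F, z₁ ^ 2 + s * z₁ * z₂ + t * z₂ ^ 2 = 0 → z₁ = 0 ∧ z₂ = 0) ∧
      Nonempty (S ≃* POmega F (quadFormMinus (m - 1) F s t))))

theorem field_cases (F : Type) [Field F] [Fintype F] :
    (2 : F) ≠ 0 ∨ ∃ f, f ≠ 0 ∧ Fintype.card F = 2 ^ f := by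
  by_cases h2 : (2 : F) = 0
  · right
    obtain ⟨p, hp⟩ := CharP.exists F
    obtain ⟨n, hpp, hc⟩ := FiniteField.card F p
    have hp2 : p = 2 := by
      have h3 : ((2 : ℕ) : F) = 0 := by exact_mod_cast h2
      have h4 := (CharP.cast_eq_zero_iff F p 2).1 h3
      exact ((Nat.prime_dvd_prime_iff_eq hpp Nat.prime_two).1 h4)
    subst hp2
    exact ⟨n, n.ne_zero, hc⟩
  · exact Or.inl h2

theorem frob {F : Type} [Field F] [Fintype F] {q r : ℕ} (hr : r ≠ 0) (hq : IsPrimePow q)
    (hF : Fintype.card F = q ^ r) (a b : F) : (a + b) ^ q = a ^ q + b ^ q := by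
  obtain ⟨p, k, hp, hk, rfl⟩ := (isPrimePow_nat_iff _).1 hq
  obtain ⟨p', hp'⟩ := CharP.exists F
  obtain ⟨n, hpp, hc⟩ := FiniteField.card F p'
  have h1 : p' = p := by
    have h2 : p' ∣ p := by
      have h3 : p' ∣ (p ^ k) ^ r := by
        rw [← hF, hc]
        exact dvd_pow_self _ n.ne_zero
      exact hpp.dvd_of_dvd_pow (hpp.dvd_of_dvd_pow h3)
    exact (Nat.prime_dvd_prime_iff_eq hpp hp).1 h2
  subst h1
  have : Fact p'.Prime := ⟨hpp⟩
  exact add_pow_char_pow (R := F) a b p' k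

theorem even_pow {q : ℕ} {F : Type} [Field F] [Fintype F] {r : ℕ} (hr : r ≠ 0) (hq : IsPrimePow q)
    (hF : Fintype.card F = q ^ r) : (2 : F) ≠ 0 ∨ ∃ f, f ≠ 0 ∧ q = 2 ^ f := by
  rcases field_cases F with h | ⟨f, hf, hf2⟩
  · exact Or.inl h
  right
  obtain ⟨p, k, hp, hk, rfl⟩ := (isPrimePow_nat_iff _).1 hq
  have h2 : p = 2 := by
    have h3 : p ∣ 2 ^ f := by
      rw [← hf2, hF]
      exact dvd_pow (dvd_pow_self p hk.ne') hr
    exact (Nat.prime_dvd_prime_iff_eq hp Nat.prime_two).1 (hp.dvd_of_dvd_pow h3)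
  exact ⟨k, hk.ne', by rw [h2]⟩

theorem two_pow_even {f : ℕ} (hf : f ≠ 0) : Even (2 ^ f) := (even_two).pow_of_ne_zero hf

/-- The exceptional groups of characteristic 2 do not occur for these `e`. -/
structure NoEx (e : ℕ) : Prop where
  six : ¬ 6 ∣ e
  sixtythree : ¬ 63 ∣ e
  two : e % 4 ≠ 2
  eleven : e ≠ 11

theorem odd_card {F : Type} [Field F] [Fintype F] (h2 : (2 : F) ≠ 0) : Odd (Fintype.card F) := by
  obtain ⟨p, hp⟩ := CharP.exists F
  obtain ⟨n, hpp, hc⟩ := FiniteField.card F p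
  rw [hc]
  apply Odd.pow
  rcases hpp.eq_two_or_odd' with h | h
  · exfalso
    apply h2
    have h3 : ((p : ℕ) : F) = 0 := CharP.cast_eq_zero F p
    rw [h] at h3
    exact_mod_cast h3
  · exact h

theorem e8_odd {q c : ℕ} (hq : Odd q) (hc : c = q ^ 120 * (q ^ 2 - 1) * (q ^ 8 - 1) *
    (q ^ 12 - 1) * (q ^ 14 - 1) * (q ^ 18 - 1) * (q ^ 20 - 1) * (q ^ 24 - 1) * (q ^ 30 - 1)) :
    2 ^ 24 ∣ c := by
  have h : ∀ k, 8 ∣ q ^ (2 * k) - 1 := by
    intro k
    have := Nat.eight_dvd_sq_sub_one_of_odd (hq.pow (n := k))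
    rwa [← pow_mul, mul_comm] at this
  obtain ⟨a1, h1⟩ := h 1
  obtain ⟨a2, h2⟩ := h 4
  obtain ⟨a3, h3⟩ := h 6
  obtain ⟨a4, h4⟩ := h 7
  obtain ⟨a5, h5⟩ := h 9
  obtain ⟨a6, h6⟩ := h 10
  obtain ⟨a7, h7⟩ := h 12
  obtain ⟨a8, h8⟩ := h 15
  norm_num at h1 h2 h3 h4 h5 h6 h7 h8
  rw [hc, h1, h2, h3, h4, h5, h6, h7, h8]
  exact ⟨q ^ 120 * a1 * a2 * a3 * a4 * a5 * a6 * a7 * a8, by ring⟩

theorem cases0 (T : OrderTable.{u}) {S : Type u} [Group S] (h : IsKnownSimple' S)
    (hna : ¬ ∀ a b : S, Commute a b) {e : ℕ} (he : NoEx e) (h1 : 2 ^ e ∣ Nat.card S)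
    (h2 : ¬ 2 ^ (e + 1) ∣ Nat.card S) :
    (∃ n, 5 ≤ n ∧ Nonempty (S ≃* alternatingGroup (Fin n))) ∨ OddCl S ∨
    (∃ d, ((d = 248 ∧ 2 ^ 24 ∣ Nat.card S) ∨ d ≤ 133) ∧ OddEx S d) ∨ EvenCl S e ∨
    (∃ x ∈ spor, x.1 ≠ .tits ∧ Real x.1 S ∧ Nat.card S = x.2) := by
  have key : ∀ (g : Grp), g ∈ spor.map (fun x => x.1) → g ≠ .tits → Real g S →
      (∃ x ∈ spor, x.1 ≠ .tits ∧ Real x.1 S ∧ Nat.card S = x.2) := fun g hg hne hr => by
    obtain ⟨x, hx, rfl⟩ := List.mem_map.1 hg
    exact ⟨x, hx, hne, hr, T.spor S x hx hr⟩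
  rcases h with h | h | h | h | h | h | h | h | h | h
  · exfalso
    have : Fact (Nat.card S).Prime := ⟨h⟩
    have : IsCyclic S := isCyclic_of_prime_card (p := Nat.card S) rfl
    exact hna fun a b => (IsCyclic.isMulCommutative (α := S)).is_comm.comm a b
  · obtain ⟨n, hn, e⟩ := h
    exact Or.inl ⟨n, hn, e⟩
  · obtain ⟨F, _, _, n, hn, hn2, ⟨i⟩⟩ := h
    rw [Nat.card_congr i.toEquiv] at h1 h2
    rcases field_cases F with hF | ⟨f, hf, hF⟩
    · exact Or.inr (Or.inl ⟨F, inferInstance, inferInstance, hF, Or.inl ⟨n, ⟨i⟩⟩⟩)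
    · refine Or.inr (Or.inr (Or.inr (Or.inl ⟨F, inferInstance, inferInstance, f, Or.inl ⟨n, hn, hF, ?_, ⟨i⟩⟩⟩)))
      have hc := Cfsg.Agent.S0243.result (F := F) rfl n hn
      rw [Fin.prod_univ_eq_prod_range (fun i => Fintype.card F ^ n - Fintype.card F ^ i) n,
        ← prod_list, hF] at hc
      change _ = glN n (2 ^ f) at hc
      rw [glN_eq, ← pow_mul, ← mul_assoc] at hc
      have hev := two_pow_even hf
      have hpos : 0 < 2 ^ f := by positivity
      refine exp_eq ?_ (odd_glN hev hpos) hc h1 h2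
      have ho := odd_sub (k := 1) hev hpos (by norm_num)
      rw [pow_one] at ho
      exact (ho.of_dvd_nat (Nat.gcd_dvd_right _ _)).mul ho
  · obtain ⟨F, _, _, n, hn, hn2, ⟨i⟩⟩ := h
    rw [Nat.card_congr i.toEquiv] at h1 h2
    rcases field_cases F with hF | ⟨f, hf, hF⟩
    · exact Or.inr (Or.inl ⟨F, inferInstance, inferInstance, hF, Or.inr (Or.inl ⟨n, ⟨i⟩⟩)⟩)
    · refine Or.inr (Or.inr (Or.inr (Or.inl ⟨F, inferInstance, inferInstance, f, Or.inr (Or.inl ⟨n, hn, hF, ?_, ⟨i⟩⟩)⟩)))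
      have hc1 := Cfsg.Agent.S0245.result (F := F) rfl n
      have hc2 := Cfsg.Agent.S0246.result (F := F) rfl n (by omega)
      have hc3 := Subgroup.card_eq_card_quotient_mul_card_subgroup
        (Subgroup.center (Matrix.symplecticGroup (Fin n) F))
      rw [← prod_list (fun i => Fintype.card F ^ (2 * (i + 1)) - 1)] at hc1
      rw [hc1, hc2, hF, ← pow_mul] at hc3
      change _ * prB (2 ^ f) n = Nat.card (PSp n F) * _ at hc3
      have hev := two_pow_even hf
      have hpos : 0 < 2 ^ f := by positivity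
      refine exp_eq ?_ (odd_prB (m := n) hev hpos) (by rw [mul_comm]; exact hc3.symm) h1 h2
      have ho := odd_sub (k := 1) hev hpos (by norm_num)
      rw [pow_one] at ho
      exact ho.of_dvd_nat (Nat.gcd_dvd_right _ _)
  · obtain ⟨F, _, _, n, q, hF, hn, hn2, ⟨i⟩⟩ := h
    rw [Nat.card_congr i.toEquiv] at h1 h2
    have hq2 : IsPrimePow (q ^ 2) := hF ▸ Fintype.isPrimePow_card_of_field
    have hqp : IsPrimePow q := (isPrimePow_pow_iff (by norm_num)).1 hq2
    rcases even_pow two_ne_zero hqp hF with h | ⟨f, hf, rfl⟩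
    · exact Or.inr (Or.inl ⟨F, inferInstance, inferInstance, h, Or.inr (Or.inr (Or.inl ⟨n, q, frob two_ne_zero hqp hF, ⟨i⟩⟩))⟩)
    · refine Or.inr (Or.inr (Or.inr (Or.inl
        ⟨F, inferInstance, inferInstance, f, Or.inr (Or.inr (Or.inl ⟨n, hn, hF, ?_, ⟨i⟩⟩))⟩)))
      have hc := Cfsg.Agent.S0280.result hF n (by omega)
      rw [← prod_list] at hc
      have hP : prU (2 ^ f) n = ((List.range n).map fun i =>
          if Even i then (2 ^ f) ^ (i + 1) + 1 else (2 ^ f) ^ (i + 1) - 1).prod := by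
        unfold prU
        congr 1
        apply List.map_congr_left
        intro i _
        by_cases h : Even i
        · rw [if_pos h, if_pos]
          rw [Nat.beq_eq]
          exact Nat.even_iff.1 h
        · rw [if_neg h, if_neg]
          rw [Nat.beq_eq, ← Nat.even_iff]
          exact h
      rw [← hP, ← pow_mul, ← mul_assoc] at hc
      have hev := two_pow_even hf
      have hpos : 0 < 2 ^ f := by positivity
      refine exp_eq ?_ (odd_prU (n := n) hev hpos) hc h1 h2
      have ho := odd_add (k := 1) hev (by norm_num)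
      rw [pow_one] at ho
      exact (ho.of_dvd_nat (Nat.gcd_dvd_right _ _)).mul ho
  · obtain ⟨F, _, _, n, hn, ho, ⟨i⟩⟩ := h
    refine Or.inr (Or.inl ⟨F, inferInstance, inferInstance, ?_, Or.inr (Or.inr (Or.inr (Or.inl ⟨n, ⟨i⟩⟩)))⟩)
    rcases field_cases F with hF | ⟨f, hf, hF⟩
    · exact hF
    · rw [hF] at ho
      exact absurd (two_pow_even hf) (Nat.not_even_iff_odd.2 ho)
  · obtain ⟨F, _, _, n, hn, ⟨i⟩⟩ := h
    rw [Nat.card_congr i.toEquiv] at h1 h2
    rcases field_cases F with hF | ⟨f, hf, hF⟩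
    · exact Or.inr (Or.inl ⟨F, inferInstance, inferInstance, hF, Or.inr (Or.inr (Or.inr (Or.inr (Or.inl ⟨n, ⟨i⟩⟩))))⟩)
    · refine Or.inr (Or.inr (Or.inr (Or.inl
        ⟨F, inferInstance, inferInstance, f, Or.inr (Or.inr (Or.inr (Or.inl ⟨n, hn, hF, ?_, ⟨i⟩⟩)))⟩)))
      have hc := Cfsg.Agent.S0293.result (F := F) rfl n hn
      rw [← prod_list (fun i => Fintype.card F ^ (2 * (i + 1)) - 1), hF, mul_assoc] at hc
      have hev := two_pow_even hf
      have hpos : 0 < 2 ^ f := by positivity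
      have hn0 : n ≠ 0 := by omega
      refine exp_eq (k := f * (n * (n - 1))) (m := ((2 ^ f) ^ n - 1) * prB (2 ^ f) (n - 1)) ?_
        ((odd_sub hev hpos hn0).mul (odd_prB hev hpos)) (by rw [pow_mul]; exact hc) h1 h2
      exact (odd_sub hev hpos hn0).of_dvd_nat (Nat.gcd_dvd_right _ _)
  · obtain ⟨F, _, _, n, a, b, hn, hab, ⟨i⟩⟩ := h
    rw [Nat.card_congr i.toEquiv] at h1 h2
    rcases field_cases F with hF | ⟨f, hf, hF⟩
    · exact Or.inr (Or.inl ⟨F, inferInstance, inferInstance, hF, Or.inr (Or.inr (Or.inr (Or.inr (Or.inr ⟨_, a, b, ⟨i⟩⟩))))⟩)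
    · refine Or.inr (Or.inr (Or.inr (Or.inl
        ⟨F, inferInstance, inferInstance, f, Or.inr (Or.inr (Or.inr (Or.inr ⟨n, a, b, hn, hF, ?_, hab, ⟨i⟩⟩)))⟩)))
      have hc := Cfsg.Agent.S0294.result (F := F) rfl n hn a b hab
      rw [← prod_list (fun i => Fintype.card F ^ (2 * (i + 1)) - 1), hF, mul_assoc] at hc
      have hev := two_pow_even hf
      have hpos : 0 < 2 ^ f := by positivity
      have hn0 : n ≠ 0 := by omega
      refine exp_eq (k := f * (n * (n - 1))) (m := ((2 ^ f) ^ n + 1) * prB (2 ^ f) (n - 1)) ?_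
        ((odd_add hev hn0).mul (odd_prB hev hpos)) (by rw [pow_mul]; exact hc) h1 h2
      exact (odd_add hev hn0).of_dvd_nat (Nat.gcd_dvd_right _ _)
  · rcases h with h | h | h | h | h | h | h | h | h | h | h
    · obtain ⟨F, _, _, hq, ⟨i⟩⟩ := h
      rw [Nat.card_congr i.toEquiv] at h1 h2
      rcases field_cases F with hF | ⟨f, hf, hF⟩
      · exact Or.inr (Or.inr (Or.inl ⟨14, by norm_num, F, inferInstance, inferInstance, Lie.chevG2.Idx, inferInstance, inferInstance, hF, by
          rw [Fintype.card_sum, Fintype.card_fin, Fintype.card_fin]; rfl,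
          (Lie.chevG2.group F).subtype.comp i.toMonoidHom,
          (Subgroup.subtype_injective _).comp i.injective⟩))
      · exfalso
        have hev := two_pow_even hf
        have hpos : 0 < 2 ^ f := by positivity
        have hc := T.g2 F
        rw [hF, mul_assoc] at hc
        have hk := exp_eq (k := f * 6) odd_one ((odd_sub hev hpos two_ne_zero).mul
          (odd_sub hev hpos (by norm_num : 6 ≠ 0))) (by rw [one_mul, pow_mul]; exact hc) h1 h2
        exact he.six (by omega)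
    · obtain ⟨F, _, _, ⟨i⟩⟩ := h
      rw [Nat.card_congr i.toEquiv] at h1 h2
      rcases field_cases F with hF | ⟨f, hf, hF⟩
      · exact Or.inr (Or.inr (Or.inl ⟨52, by norm_num, F, inferInstance, inferInstance, Lie.chevF4.Idx, inferInstance, inferInstance, hF, by
          rw [Fintype.card_sum, Fintype.card_fin, Fintype.card_fin]; rfl,
          (Lie.chevF4.group F).subtype.comp i.toMonoidHom,
          (Subgroup.subtype_injective _).comp i.injective⟩))
      · exfalso
        have hev := two_pow_even hf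
        have hpos : 0 < 2 ^ f := by positivity
        have ho : ∀ k, k ≠ 0 → Odd ((2 ^ f) ^ k - 1) := fun k hk => odd_sub hev hpos hk
        have hc := T.f4 F _ rfl
        rw [hF] at hc
        have hk := exp_eq (k := f * 24) (m := ((2 ^ f) ^ 2 - 1) * ((2 ^ f) ^ 6 - 1) * ((2 ^ f) ^ 8 - 1) *
          ((2 ^ f) ^ 12 - 1)) odd_one ((((ho _ (by norm_num)).mul (ho _ (by norm_num))).mul
          (ho _ (by norm_num))).mul (ho _ (by norm_num))) (by rw [one_mul, hc, pow_mul]; ring) h1 h2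
        exact he.six (by omega)
    · obtain ⟨F, _, _, ⟨i⟩⟩ := h
      rw [Nat.card_congr i.toEquiv] at h1 h2
      rcases field_cases F with hF | ⟨f, hf, hF⟩
      · exact Or.inr (Or.inr (Or.inl ⟨78, by norm_num, F, inferInstance, inferInstance, Lie.chevE6.Idx, inferInstance, inferInstance, hF, by
          rw [Fintype.card_sum, Fintype.card_fin, Fintype.card_fin]; rfl,
          (Lie.chevE6.group F).subtype.comp i.toMonoidHom,
          (Subgroup.subtype_injective _).comp i.injective⟩))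
      · exfalso
        have hev := two_pow_even hf
        have hpos : 0 < 2 ^ f := by positivity
        have ho : ∀ k, k ≠ 0 → Odd ((2 ^ f) ^ k - 1) := fun k hk => odd_sub hev hpos hk
        have hc := T.e6 F _ rfl
        rw [hF] at hc
        have ho1 := ho 1 (by norm_num)
        rw [pow_one] at ho1
        have hk := exp_eq (k := f * 36) (m := ((2 ^ f) ^ 2 - 1) * ((2 ^ f) ^ 5 - 1) * ((2 ^ f) ^ 6 - 1) *
          ((2 ^ f) ^ 8 - 1) * ((2 ^ f) ^ 9 - 1) * ((2 ^ f) ^ 12 - 1))
          (ho1.of_dvd_nat (Nat.gcd_dvd_right _ _)) ((((((ho _ (by norm_num)).mul (ho _ (by norm_num))).mul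
          (ho _ (by norm_num))).mul (ho _ (by norm_num))).mul (ho _ (by norm_num))).mul
          (ho _ (by norm_num))) (by rw [hc, pow_mul]; ring) h1 h2
        exact he.six (by omega)
    · obtain ⟨F, _, _, ⟨i⟩⟩ := h
      rw [Nat.card_congr i.toEquiv] at h1 h2
      rcases field_cases F with hF | ⟨f, hf, hF⟩
      · exact Or.inr (Or.inr (Or.inl ⟨133, by norm_num, F, inferInstance, inferInstance, Lie.chevE7.Idx, inferInstance, inferInstance, hF, by
          rw [Fintype.card_sum, Fintype.card_fin, Fintype.card_fin]; rfl,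
          (Lie.chevE7.group F).subtype.comp i.toMonoidHom,
          (Subgroup.subtype_injective _).comp i.injective⟩))
      · exfalso
        have hev := two_pow_even hf
        have hpos : 0 < 2 ^ f := by positivity
        have ho : ∀ k, k ≠ 0 → Odd ((2 ^ f) ^ k - 1) := fun k hk => odd_sub hev hpos hk
        have hc := T.e7 F _ rfl
        rw [hF] at hc
        have ho1 := ho 1 (by norm_num)
        rw [pow_one] at ho1
        have hk := exp_eq (k := f * 63) (m := ((2 ^ f) ^ 2 - 1) * ((2 ^ f) ^ 6 - 1) * ((2 ^ f) ^ 8 - 1) *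
          ((2 ^ f) ^ 10 - 1) * ((2 ^ f) ^ 12 - 1) * ((2 ^ f) ^ 14 - 1) * ((2 ^ f) ^ 18 - 1))
          (ho1.of_dvd_nat (Nat.gcd_dvd_right _ _)) (((((((ho _ (by norm_num)).mul (ho _ (by norm_num))).mul
          (ho _ (by norm_num))).mul (ho _ (by norm_num))).mul (ho _ (by norm_num))).mul
          (ho _ (by norm_num))).mul (ho _ (by norm_num))) (by rw [hc, pow_mul]; ring) h1 h2
        exact he.sixtythree (by omega)
    · obtain ⟨F, _, _, ⟨i⟩⟩ := h
      rw [Nat.card_congr i.toEquiv] at h1 h2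
      rcases field_cases F with hF | ⟨f, hf, hF⟩
      · exact Or.inr (Or.inr (Or.inl ⟨248, Or.inl ⟨rfl, by
          rw [Nat.card_congr i.toEquiv]
          exact e8_odd (odd_card hF) (T.e8 F _ rfl)⟩, F, inferInstance, inferInstance, Lie.chevE8.Idx, inferInstance, inferInstance, hF, by
          rw [Fintype.card_sum, Fintype.card_fin, Fintype.card_fin]; rfl,
          (Lie.chevE8.group F).subtype.comp i.toMonoidHom,
          (Subgroup.subtype_injective _).comp i.injective⟩))
      · exfalso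
        have hev := two_pow_even hf
        have hpos : 0 < 2 ^ f := by positivity
        have ho : ∀ k, k ≠ 0 → Odd ((2 ^ f) ^ k - 1) := fun k hk => odd_sub hev hpos hk
        have hc := T.e8 F _ rfl
        rw [hF] at hc
        have hk := exp_eq (k := f * 120) (m := ((2 ^ f) ^ 2 - 1) * ((2 ^ f) ^ 8 - 1) * ((2 ^ f) ^ 12 - 1) *
          ((2 ^ f) ^ 14 - 1) * ((2 ^ f) ^ 18 - 1) * ((2 ^ f) ^ 20 - 1) * ((2 ^ f) ^ 24 - 1) *
          ((2 ^ f) ^ 30 - 1))
          odd_one ((((((((ho _ (by norm_num)).mul (ho _ (by norm_num))).mul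
          (ho _ (by norm_num))).mul (ho _ (by norm_num))).mul (ho _ (by norm_num))).mul
          (ho _ (by norm_num))).mul (ho _ (by norm_num))).mul (ho _ (by norm_num)))
          (by rw [one_mul, hc, pow_mul]; ring) h1 h2
        exact he.six (by omega)
    · obtain ⟨F, _, _, q, hq, hF, ⟨i⟩⟩ := h
      rw [Nat.card_congr i.toEquiv] at h1 h2
      rcases even_pow two_ne_zero hq hF with hF2 | ⟨f, hf, rfl⟩
      · exact Or.inr (Or.inr (Or.inl ⟨78, by norm_num, F, inferInstance, inferInstance, Lie.chevE6.Idx, inferInstance, inferInstance, hF2, by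
          rw [Fintype.card_sum, Fintype.card_fin, Fintype.card_fin]; rfl,
          (Lie.twistedE6 F q).subtype.comp i.toMonoidHom,
          (Subgroup.subtype_injective _).comp i.injective⟩))
      · exfalso
        have hev := two_pow_even hf
        have hpos : 0 < 2 ^ f := by positivity
        have ho : ∀ k, k ≠ 0 → Odd ((2 ^ f) ^ k - 1) := fun k hk => odd_sub hev hpos hk
        have ho' : ∀ k, k ≠ 0 → Odd ((2 ^ f) ^ k + 1) := fun k hk => odd_add hev hk
        have hc := T.te6 F _ hq hF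
        have ho1 := ho' 1 (by norm_num)
        rw [pow_one] at ho1
        have hk := exp_eq (k := f * 36) (m := ((2 ^ f) ^ 2 - 1) * ((2 ^ f) ^ 5 + 1) * ((2 ^ f) ^ 6 - 1) *
          ((2 ^ f) ^ 8 - 1) * ((2 ^ f) ^ 9 + 1) * ((2 ^ f) ^ 12 - 1))
          (ho1.of_dvd_nat (Nat.gcd_dvd_right _ _)) ((((((ho _ (by norm_num)).mul (ho' _ (by norm_num))).mul
          (ho _ (by norm_num))).mul (ho _ (by norm_num))).mul (ho' _ (by norm_num))).mul
          (ho _ (by norm_num))) (by rw [hc, pow_mul]; ring) h1 h2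
        exact he.six (by omega)
    · obtain ⟨F, _, _, q, hq, hF, ⟨i⟩⟩ := h
      rw [Nat.card_congr i.toEquiv] at h1 h2
      rcases even_pow three_ne_zero hq hF with hF2 | ⟨f, hf, rfl⟩
      · exact Or.inr (Or.inr (Or.inl ⟨28, by norm_num, F, inferInstance, inferInstance, Lie.chevD4.Idx, inferInstance, inferInstance, hF2, by
          rw [Fintype.card_sum, Fintype.card_fin, Fintype.card_fin]; rfl,
          (Lie.twistedD4 F q).subtype.comp i.toMonoidHom,
          (Subgroup.subtype_injective _).comp i.injective⟩))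
      · exfalso
        have hev := two_pow_even hf
        have hpos : 0 < 2 ^ f := by positivity
        have ho : ∀ k, k ≠ 0 → Odd ((2 ^ f) ^ k - 1) := fun k hk => odd_sub hev hpos hk
        have hc := T.td4 F _ hq hF
        have ho8 : Odd ((2 ^ f) ^ 8 + (2 ^ f) ^ 4 + 1) :=
          ((hev.pow_of_ne_zero (by norm_num)).add (hev.pow_of_ne_zero (by norm_num))).add_one
        have hk := exp_eq (k := f * 12) (m := ((2 ^ f) ^ 2 - 1) * ((2 ^ f) ^ 6 - 1) *
          ((2 ^ f) ^ 8 + (2 ^ f) ^ 4 + 1))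
          odd_one (((ho _ (by norm_num)).mul (ho _ (by norm_num))).mul ho8)
          (by rw [one_mul, hc, pow_mul]; ring) h1 h2
        exact he.six (by omega)
    · obtain ⟨F, _, _, m, hm, hF, ⟨i⟩⟩ := h
      rw [Nat.card_congr i.toEquiv] at h1 h2
      exfalso
      have hf : 2 * m + 1 ≠ 0 := by omega
      have hev := two_pow_even hf
      have hpos : 0 < 2 ^ (2 * m + 1) := by positivity
      have hc := T.sz F m hm hF
      rw [← pow_mul, mul_assoc, pow_mul] at hc
      have ho1 := odd_sub (k := 1) hev hpos (by norm_num)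
      rw [pow_one] at ho1
      have hk := exp_eq (k := (2 * m + 1) * 2) (m := (2 ^ (2 * m + 1) - 1) * ((2 ^ (2 * m + 1)) ^ 2 + 1))
        odd_one (ho1.mul (odd_add hev two_ne_zero)) (by rw [one_mul, pow_mul]; exact hc) h1 h2
      exact he.two (by omega)
    · obtain ⟨F, _, _, m, hm, hF, ⟨i⟩⟩ := h
      refine Or.inr (Or.inr (Or.inl ⟨14, by norm_num, F, inferInstance, inferInstance, Lie.chevG2.Idx, inferInstance, inferInstance, ?_, by
          rw [Fintype.card_sum, Fintype.card_fin, Fintype.card_fin]; rfl,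
          (Lie.twistedG2 F (3 ^ m)).subtype.comp i.toMonoidHom,
          (Subgroup.subtype_injective _).comp i.injective⟩))
      rcases field_cases F with h | ⟨f, hf, hF2⟩
      · exact h
      · exfalso
        rw [hF] at hF2
        have h3 : Odd (3 ^ (2 * m + 1)) := Odd.pow (by decide)
        rw [hF2] at h3
        exact absurd (two_pow_even hf) (Nat.not_even_iff_odd.2 h3)
    · obtain ⟨F, _, _, m, hm, hF, ⟨i⟩⟩ := h
      rw [Nat.card_congr i.toEquiv] at h1 h2
      exfalso
      have hf : 2 * m + 1 ≠ 0 := by omega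
      have hev := two_pow_even hf
      have hpos : 0 < 2 ^ (2 * m + 1) := by positivity
      have ho : ∀ k, k ≠ 0 → Odd ((2 ^ (2 * m + 1)) ^ k - 1) := fun k hk => odd_sub hev hpos hk
      have ho' : ∀ k, k ≠ 0 → Odd ((2 ^ (2 * m + 1)) ^ k + 1) := fun k hk => odd_add hev hk
      have hc := T.tf4 F m hm hF
      have ho1 := ho 1 (by norm_num)
      rw [pow_one] at ho1
      have hk := exp_eq (k := (2 * m + 1) * 12) (m := (2 ^ (2 * m + 1) - 1) *
        ((2 ^ (2 * m + 1)) ^ 3 + 1) * ((2 ^ (2 * m + 1)) ^ 4 - 1) * ((2 ^ (2 * m + 1)) ^ 6 + 1))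
        odd_one (((ho1.mul (ho' _ (by norm_num))).mul (ho _ (by norm_num))).mul
        (ho' _ (by norm_num))) (by rw [one_mul, pow_mul, hc]; ring) h1 h2
      exact he.six (by omega)
    · exfalso
      have hc := T.spor S (.tits, 17971200) (by decide) h
      have hk := exp_eq (k := 11) (m := 8775) odd_one (by decide)
        (by rw [one_mul, hc]; norm_num) h1 h2
      exact he.eleven hk.symm
  · right; right; right; right
    rcases h with h | h | h | h | h | h | h | h | h | h | h | h | h | h | h | h | h | h | h | h | h | h | h | h | h | h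
    · exact key .m11 (by decide) (by decide) h
    · exact key .m12 (by decide) (by decide) h
    · exact key .m22 (by decide) (by decide) h
    · exact key .m23 (by decide) (by decide) h
    · exact key .m24 (by decide) (by decide) h
    · exact key .j1 (by decide) (by decide) h
    · exact key .j2 (by decide) (by decide) h
    · exact key .j3 (by decide) (by decide) h
    · exact key .j4 (by decide) (by decide) h
    · exact key .co1 (by decide) (by decide) h
    · exact key .co2 (by decide) (by decide) h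
    · exact key .co3 (by decide) (by decide) h
    · exact key .mcl (by decide) (by decide) h
    · exact key .hs (by decide) (by decide) h
    · exact key .suz (by decide) (by decide) h
    · exact key .he (by decide) (by decide) h
    · exact key .ru (by decide) (by decide) h
    · exact key .on (by decide) (by decide) h
    · exact key .ly (by decide) (by decide) h
    · exact key .fi22 (by decide) (by decide) h
    · exact key .fi23 (by decide) (by decide) h
    · exact key .fi24 (by decide) (by decide) h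
    · exact key .hn (by decide) (by decide) h
    · exact key .th (by decide) (by decide) h
    · exact key .b (by decide) (by decide) h
    · exact key .m (by decide) (by decide) h

theorem cases (T : OrderTable.{u}) {S : Type u} [Group S] (h : IsKnownSimple' S)
    (hna : ¬ ∀ a b : S, Commute a b) {e : ℕ} (he : NoEx e) (h1 : 2 ^ e ∣ Nat.card S)
    (h2 : ¬ 2 ^ (e + 1) ∣ Nat.card S) :
    (∃ n, 5 ≤ n ∧ Nonempty (S ≃* alternatingGroup (Fin n))) ∨ OddCl S ∨
    (∃ d, (d = 248 ∨ d ≤ 133) ∧ OddEx S d) ∨ EvenCl S e ∨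
    (∃ x ∈ spor, x.1 ≠ .tits ∧ Real x.1 S ∧ Nat.card S = x.2) := by
  rcases cases0 T h hna he h1 h2 with h | h | ⟨d, hd | hd, h⟩ | h | h
  · exact Or.inl h
  · exact Or.inr (Or.inl h)
  · exact Or.inr (Or.inr (Or.inl ⟨d, Or.inl hd.1, h⟩))
  · exact Or.inr (Or.inr (Or.inl ⟨d, Or.inr hd, h⟩))
  · exact Or.inr (Or.inr (Or.inr (Or.inl h)))
  · exact Or.inr (Or.inr (Or.inr (Or.inr h)))

end Cfsg.Agent.H338.Families
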