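import Cfsg.Agent.H338.LocSyl
import Cfsg.Prelude.Def_Solvable

/-!
# Local recognition: the hypotheses (helper338)
-/

set_option autoImplicit false

namespace Cfsg.Agent.H338.LocSyl

open Subgroup Cfsg.Agent.H338.Reduce

variable {G : Type*} [Group G] {X : Type*} [Group X] {V : Subgroup G}

theorem mk_loc [Finite G] (f : normalizer (V : Set G) →* X) (hf : Function.Surjective f)
    (hk : f.ker = V.subgroupOf (normalizer (V : Set G))) [hX : IsSimpleGroup X]
    {n p : ℕ} (hsq : ∀ v ∈ V, v * v = 1) (hcard : Nat.card V = 2 ^ n) (hn : 2 ≤ n)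
    (hcent : ∀ g : G, (∀ v ∈ V, g * v = v * g) → g ∈ V)
    (hirr : ∀ W : Subgroup G, W ≤ V →
      (∀ g ∈ normalizer (V : Set G), ∀ w ∈ W, g * w * g⁻¹ ∈ W) → W = ⊥ ∨ W = V)
    (hp : p.Prime) (hlt : n < p) (hpX : p ∣ Nat.card X)
    (hO : ∀ T : Sylow 2 (normalizer (V : Set G)), ∀ s : normalizer (V : Set G),
      s ∈ (T : Subgroup (normalizer (V : Set G))) → orderOf s = 2 →
      (∀ y ∈ (T : Subgroup (normalizer (V : Set G))), y * s = s * y) →
      Cfsg.pPrimeCore 2 (centralizer ({(s : G)} : Set G)) = ⊥) : Loc V n p where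
  sq := hsq
  card := hcard
  two_le := hn
  cent := hcent
  irr := hirr
  simple := by
    intro M hVM hMN hM
    have hMn : (M.subgroupOf (normalizer (V : Set G))).Normal := ⟨fun m hm g => hM g g.2 m hm⟩
    have h1 : ((M.subgroupOf (normalizer (V : Set G))).map f).Normal := hMn.map f hf
    have hcm : ((M.subgroupOf (normalizer (V : Set G))).map f).comap f =
        M.subgroupOf (normalizer (V : Set G)) := by
      rw [Subgroup.comap_map_eq, hk, sup_eq_left]
      intro x hx
      exact hVM hx
    rcases h1.eq_bot_or_eq_top with h | h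
    · left
      rw [h, MonoidHom.comap_bot, hk] at hcm
      apply le_antisymm _ hVM
      intro m hm
      have h2 : (⟨m, hMN hm⟩ : normalizer (V : Set G)) ∈ M.subgroupOf (normalizer (V : Set G)) := hm
      rw [← hcm] at h2
      exact h2
    · right
      rw [h, Subgroup.comap_top] at hcm
      apply le_antisymm hMN
      intro m hm
      have h2 : (⟨m, hm⟩ : normalizer (V : Set G)) ∈ (⊤ : Subgroup _) := trivial
      rw [hcm] at h2
      exact h2
  prime := hp
  lt := hlt
  y := by
    have : Fact p.Prime := ⟨hp⟩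
    have h1 : p ∣ Nat.card (normalizer (V : Set G)) :=
      hpX.trans (Subgroup.card_dvd_of_surjective f hf)
    obtain ⟨y, hy⟩ := exists_prime_orderOf_dvd_card' (G := normalizer (V : Set G)) p h1
    exact ⟨y, y.2, by rw [← hy, Subgroup.orderOf_coe]⟩
  core := by
    intro P hPN hP hVP hmax s hs hs1 hss hsc R hR hRn hRc
    have : Fact (Nat.Prime 2) := ⟨Nat.prime_two⟩
    have hP2 : IsPGroup 2 (P.subgroupOf (normalizer (V : Set G))) := by
      obtain ⟨k, hk'⟩ := IsPGroup.iff_card.1 hP
      apply IsPGroup.of_card (n := k)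
      rw [Nat.card_congr (Subgroup.subgroupOfEquivOfLe hPN).toEquiv, hk']
    let T : Sylow 2 (normalizer (V : Set G)) :=
      { P.subgroupOf (normalizer (V : Set G)) with
        isPGroup' := hP2
        is_maximal' := by
          intro Q hQ hPQ
          have h1 := hmax (Q.map (normalizer (V : Set G)).subtype) (map_subtype_le Q)
            (hQ.map _) (by
              intro x hx
              exact ⟨⟨x, hPN hx⟩, hPQ (show (⟨x, hPN hx⟩ : normalizer (V : Set G)) ∈
                P.subgroupOf (normalizer (V : Set G)) from hx), rfl⟩)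
          ext x
          constructor
          · intro hx
            show (x : G) ∈ P
            rw [← h1]
            exact ⟨x, hx, rfl⟩
          · intro hx
            exact hPQ hx }
    have h1 := hO T ⟨s, hPN hs⟩ hs (by
      rw [orderOf_eq_prime_iff]
      exact ⟨Subtype.ext (by show s ^ 2 = 1; rw [pow_two, hss]),
        fun h => hs1 (congrArg Subtype.val h)⟩) (fun y hy => Subtype.ext (hsc y hy))
    have h2 : (R.subgroupOf (centralizer ({s} : Set G))).Normal :=
      ⟨fun r hr g => hRn g g.2 r hr⟩
    have h3 : R.subgroupOf (centralizer ({s} : Set G)) ≤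
        Cfsg.pPrimeCore 2 (centralizer ({s} : Set G)) := by
      apply le_sSup
      refine ⟨h2, ?_⟩
      rw [Nat.card_congr (Subgroup.subgroupOfEquivOfLe hR).toEquiv]
      exact hRc
    have h4 : Cfsg.pPrimeCore 2 (centralizer ({s} : Set G)) = ⊥ := h1
    rw [h4, le_bot_iff, Subgroup.subgroupOf_eq_bot, disjoint_iff, inf_eq_left.2 hR] at h3
    exact h3

end Cfsg.Agent.H338.LocSyl
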