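import Cfsg.Agent.H338.L5Elim
import Cfsg.Agent.H338.L5Ident
import Cfsg.Agent.H338.MkLoc
import Cfsg.Agent.S0249

/-!
# `2^10 : L5(2)`: assembly (helper338)
-/

set_option autoImplicit false

namespace Cfsg.Agent.H338.L5

open Matrix Subgroup Cfsg.Agent.H338.LocSyl Cfsg.Agent.H338.Reduce

theorem center_X : Subgroup.center X = ⊥ := by
  rw [eq_bot_iff]
  intro A hA
  obtain ⟨r, hr, hA'⟩ := Matrix.SpecialLinearGroup.mem_center_iff.1 hA
  have hr0 : ∀ r : ZMod 2, r ^ Fintype.card (Fin 5) = 1 → r = 1 := by decide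
  have hr1 : r = 1 := hr0 r hr
  rw [mem_bot]
  apply Subtype.ext
  rw [← hA', hr1, map_one]
  rfl

theorem simple_X : IsSimpleGroup X := by
  have h := Cfsg.Agent.S0249.result (F := ZMod 2) 5 (by norm_num)
  have e : Matrix.ProjectiveSpecialLinearGroup (Fin 5) (ZMod 2) ≃* X :=
    (QuotientGroup.quotientMulEquivOfEq center_X).trans QuotientGroup.quotientBot
  exact e.symm.isSimpleGroup

variable {G : Type*} [Group G]

theorem ident' [Finite G] {V : Subgroup G} (hcard : Nat.card V = 2 ^ 10)
    (hsq : ∀ v ∈ V, v * v = 1) (hab : ∀ a ∈ V, ∀ b ∈ V, a * b = b * a)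
    (hcent : ∀ g : G, (∀ v ∈ V, g * v = v * g) → g ∈ V)
    (f : normalizer (V : Set G) →* X) (hf : Function.Surjective f)
    (hk : f.ker = V.subgroupOf (normalizer (V : Set G))) (hirr : Irr V) :
    ∃ (F : normalizer (V : Set G) →* X) (ψ : G → M5), Nat5 V F ψ := by
  classical
  let inst : CommGroup V :=
    { (inferInstance : Group V) with mul_comm := fun a b => Subtype.ext (hab a a.2 b b.2) }
  let A := act f hf hk hab
  let φ : X →* AddMonoid.End (Additive V) :=
    { toFun := fun g => MonoidHom.toAdditive (A g).toMonoidHom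
      map_one' := by
        refine AddMonoidHom.ext fun v => ?_
        show Additive.ofMul (A 1 v.toMul) = v
        rw [map_one]; rfl
      map_mul' := fun g h => by
        refine AddMonoidHom.ext fun v => ?_
        show Additive.ofMul (A (g * h) v.toMul) = Additive.ofMul (A g (A h v.toMul))
        rw [map_mul]; rfl }
  have hφ : ∀ (n : normalizer (V : Set G)) (v : V), ((φ (f n) (Additive.ofMul v)).toMul : G) =
      n * v * (n : G)⁻¹ := fun n v => act_apply f hf hk hab n v
  obtain ⟨α, ψ0, hψ⟩ := ident (M := Additive V) hcard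
    (fun m => congrArg Additive.ofMul (Subtype.ext (hsq _ m.toMul.2) : m.toMul * m.toMul = 1)) φ (by
      intro W hW
      have h1 := hirr ((AddSubgroup.toSubgroup W).map V.subtype) (map_subtype_le _) (by
        rintro g hg _ ⟨w, hw, rfl⟩
        have h2 := hW (f ⟨g, hg⟩) (Additive.ofMul w) hw
        exact ⟨(φ (f ⟨g, hg⟩) (Additive.ofMul w)).toMul, h2, hφ ⟨g, hg⟩ w⟩)
      rcases h1 with h1 | h1
      · left
        rw [eq_bot_iff]
        intro m hm
        have h2 : (m.toMul : G) ∈ (AddSubgroup.toSubgroup W).map V.subtype := ⟨m.toMul, hm, rfl⟩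
        rw [h1, mem_bot] at h2
        rw [AddSubgroup.mem_bot]
        exact congrArg Additive.ofMul (Subtype.ext h2 : m.toMul = 1)
      · right
        rw [eq_top_iff]
        intro m _
        have h2 : (m.toMul : G) ∈ (AddSubgroup.toSubgroup W).map V.subtype := by
          rw [h1]; exact m.toMul.2
        obtain ⟨w, hw, hwm⟩ := h2
        have h3 : w = m.toMul := Subtype.ext hwm
        have h4 : Additive.ofMul w ∈ W := hw
        rw [h3] at h4
        exact h4)
  have key : ∀ (g : G) (h : g ∈ V), (if h : g ∈ V then (ψ0 (Additive.ofMul ⟨g, h⟩) : M5) else 0) =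
      ψ0 (Additive.ofMul ⟨g, h⟩) := fun g h => dif_pos h
  refine ⟨α.symm.toMonoidHom.comp f,
    fun g => if h : g ∈ V then (ψ0 (Additive.ofMul ⟨g, h⟩) : M5) else 0, ?_, ?_, hsq, hcent,
    ?_, ?_, ?_, ?_, ?_⟩
  · exact α.symm.surjective.comp hf
  · intro x
    have h1 : x ∈ f.ker ↔ (x : G) ∈ V := by rw [hk]; rfl
    rw [← h1, MonoidHom.mem_ker]
    exact α.symm.map_eq_one_iff
  · intro v hv w hw
    rw [key v hv, key w hw, key _ (V.mul_mem hv hw)]
    have h1 : Additive.ofMul (⟨v * w, V.mul_mem hv hw⟩ : V) =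
      Additive.ofMul (⟨v, hv⟩ : V) + Additive.ofMul (⟨w, hw⟩ : V) := rfl
    rw [h1, map_add]
    rfl
  · intro v hv h
    rw [key v hv] at h
    have h1 : ψ0 (Additive.ofMul ⟨v, hv⟩) = 0 := Subtype.ext h
    rw [map_eq_zero_iff ψ0 ψ0.injective] at h1
    exact congrArg (fun z : Additive V => (z.toMul : G)) h1
  · intro v hv
    rw [key v hv]
    exact Subtype.mem _
  · intro B hB
    have h1 := ψ0.apply_symm_apply ⟨B, hB⟩
    refine ⟨(ψ0.symm ⟨B, hB⟩).toMul, (ψ0.symm ⟨B, hB⟩).toMul.2, ?_⟩
    rw [key _ (ψ0.symm ⟨B, hB⟩).toMul.2]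
    exact congrArg Subtype.val h1
  · intro n v hv
    rw [key v hv, key _ (conj_mem_V n.2 hv)]
    have h1 := hψ (α.symm (f n)) (Additive.ofMul ⟨v, hv⟩)
    rw [α.apply_symm_apply] at h1
    refine Eq.trans ?_ h1
    have h2 : (Additive.ofMul (⟨n * v * (n : G)⁻¹, conj_mem_V n.2 hv⟩ : V)) =
        φ (f n) (Additive.ofMul ⟨v, hv⟩) := by
      apply congrArg Additive.ofMul
      exact Subtype.ext (hφ n ⟨v, hv⟩).symm
    rw [h2]

/-- The reduction. -/
theorem main1 [Finite G] (A : Subgroup G) (hA : Cfsg.IsElementaryAbelian 2 A)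
    (hcard : Nat.card A = 2 ^ 10)
    (hL : Nonempty (normalizer (A : Set G) ⧸ A.subgroupOf (normalizer (A : Set G)) ≃* X))
    (hirr : ∀ W : Subgroup G, W ≤ A → normalizer (A : Set G) ≤ normalizer (W : Set G) →
      W = ⊥ ∨ W = A)
    (hO : ∀ T : Sylow 2 (normalizer (A : Set G)), ∀ s : normalizer (A : Set G),
      s ∈ (T : Subgroup (normalizer (A : Set G))) → orderOf s = 2 →
      (∀ y ∈ (T : Subgroup (normalizer (A : Set G))), y * s = s * y) →
      Cfsg.pPrimeCore 2 (centralizer ({(s : G)} : Set G)) = ⊥) :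
    A.Normal ∨ ∃ K : Subgroup G, K.Normal ∧ IsSimpleGroup K ∧ (¬ ∀ x y : K, Commute x y) ∧
      (∀ g : G, (∀ k ∈ K, g * k = k * g) → g = 1) ∧
      ∃ (V : Subgroup K) (F : normalizer (V : Set K) →* X) (ψ : K → M5), Nat5 V F ψ ∧ Irr V := by
  have : Fact (Nat.Prime 2) := ⟨Nat.prime_two⟩
  obtain ⟨q⟩ := hL
  let f : normalizer (A : Set G) →* X :=
    q.toMonoidHom.comp (QuotientGroup.mk' (A.subgroupOf (normalizer (A : Set G))))
  have hf : Function.Surjective f := q.surjective.comp (QuotientGroup.mk'_surjective _)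
  have hk : f.ker = A.subgroupOf (normalizer (A : Set G)) := by
    ext x
    rw [MonoidHom.mem_ker]
    show q (QuotientGroup.mk' _ x) = 1 ↔ _
    rw [MulEquiv.map_eq_one_iff, ← MonoidHom.mem_ker, QuotientGroup.ker_mk']
  have hsq : ∀ v ∈ A, v * v = 1 := fun v hv => by rw [← pow_two]; exact hA.2 v hv
  have hab : ∀ a ∈ A, ∀ b ∈ A, a * b = b * a := by
    intro a ha b hb
    exact congrArg Subtype.val (hA.1.is_comm.comm (⟨a, ha⟩ : A) ⟨b, hb⟩)
  have hI : Irr A := by
    intro W hW hWn
    apply hirr W hW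
    intro g hg
    rw [mem_normalizer_iff]
    intro w
    refine ⟨hWn g hg w, fun h => ?_⟩
    have h1 := hWn g⁻¹ (inv_mem hg) _ h
    have h2 : g⁻¹ * (g * w * g⁻¹) * g⁻¹⁻¹ = w := by group
    rwa [h2] at h1
  have hcent : ∀ g : G, (∀ v ∈ A, g * v = v * g) → g ∈ A := by
    have hCN : centralizer (A : Set G) ≤ normalizer (A : Set G) := centralizer_le_normalizer _
    have hCn : ((centralizer (A : Set G)).subgroupOf (normalizer (A : Set G))).Normal := by
      refine ⟨fun c hc n => ?_⟩
      have hc' : (c : G) ∈ centralizer (A : Set G) := hc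
      show (n * c * n⁻¹ : G) ∈ centralizer (A : Set G)
      rw [mem_centralizer_iff]
      intro v hv
      have hn : (n : G)⁻¹ * v * (n : G) ∈ A := by
        have := conj_mem_V (inv_mem n.2) hv
        rwa [inv_inv] at this
      have h1 := mem_centralizer_iff.1 hc' _ hn
      calc v * (n * c * (n : G)⁻¹) = n * ((n : G)⁻¹ * v * n * c) * (n : G)⁻¹ := by group
        _ = n * (c * ((n : G)⁻¹ * v * n)) * (n : G)⁻¹ := by rw [h1]
        _ = n * c * (n : G)⁻¹ * v := by group
    have hX := simple_X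
    have h1 : (((centralizer (A : Set G)).subgroupOf (normalizer (A : Set G))).map f).Normal :=
      hCn.map f hf
    rcases h1.eq_bot_or_eq_top with h | h
    · intro g hg
      have hgC : g ∈ centralizer (A : Set G) := by
        rw [mem_centralizer_iff]
        intro v hv
        exact (hg v hv).symm
      have h2 : f ⟨g, hCN hgC⟩ ∈ ((centralizer (A : Set G)).subgroupOf
        (normalizer (A : Set G))).map f := ⟨⟨g, hCN hgC⟩, hgC, rfl⟩
      rw [h, mem_bot, ← MonoidHom.mem_ker, hk] at h2
      exact h2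
    · exfalso
      -- `N` centralises `A`
      have h3 : ∀ n ∈ normalizer (A : Set G), ∀ a ∈ A, n * a = a * n := by
        intro n hn a ha
        have h4 : f ⟨n, hn⟩ ∈ ((centralizer (A : Set G)).subgroupOf
          (normalizer (A : Set G))).map f := by rw [h]; trivial
        obtain ⟨c, hc, hcn⟩ := h4
        have h5 : (⟨n, hn⟩ * c⁻¹ : normalizer (A : Set G)) ∈ f.ker := by
          rw [MonoidHom.mem_ker, map_mul, map_inv, hcn, mul_inv_cancel]
        rw [hk] at h5
        have h6 : n * (c : G)⁻¹ ∈ A := h5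
        have h7 : (c : G) ∈ centralizer (A : Set G) := hc
        have h8 := hab _ h6 a ha
        have h9 := mem_centralizer_iff.1 h7 a ha
        calc n * a = n * (c : G)⁻¹ * (c * a) := by group
          _ = n * (c : G)⁻¹ * a * c := by rw [← h9]; group
          _ = a * (n * (c : G)⁻¹) * c := by rw [h8]
          _ = a * n := by group
      obtain ⟨a, ha⟩ : ∃ a ∈ A, a ≠ 1 := by
        by_contra hcon
        push Not at hcon
        have : A = ⊥ := by
          rw [eq_bot_iff]
          intro x hx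
          exact hcon x hx
        rw [this, Subgroup.card_bot] at hcard
        norm_num at hcard
      rcases hI (zpowers a) ((zpowers_le).2 ha.1) (by
        rintro g hg w ⟨k, rfl⟩
        have h10 : Commute g a := h3 g hg a ha.1
        have h11 : g * a ^ k = a ^ k * g := (h10.zpow_right k)
        show g * a ^ k * g⁻¹ ∈ _
        rw [h11, mul_inv_cancel_right]
        exact ⟨k, rfl⟩) with h4 | h4
      · rw [zpowers_eq_bot] at h4
        exact ha.2 h4
      · have h5 : Nat.card (zpowers a) = 2 := by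
          rw [Nat.card_zpowers]
          exact orderOf_eq_prime (by rw [pow_two]; exact hsq a ha.1) ha.2
        rw [h4, hcard] at h5
        norm_num at h5
  have hX := simple_X
  have L : Loc A 10 31 := mk_loc f hf hk hsq hcard (by norm_num) hcent hI (by norm_num)
    (by norm_num) (by rw [card_X]; norm_num) hO
  rcases L.reduce with h | ⟨K, hK, hKs, hKna, hNK, hCK⟩
  · exact Or.inl h
  right
  have hAK : A ≤ K := le_trans le_normalizer hNK
  have hcardV : Nat.card (A.subgroupOf K) = 2 ^ 10 := by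
    rw [Nat.card_congr (Subgroup.subgroupOfEquivOfLe hAK).toEquiv, hcard]
  have hN1 : ∀ k : K, k ∈ normalizer ((A.subgroupOf K : Subgroup K) : Set K) ↔
      (k : G) ∈ normalizer (A : Set G) := by
    intro k
    rw [mem_normalizer_iff, mem_normalizer_iff]
    constructor
    · intro h a
      by_cases haK : a ∈ K
      · exact h ⟨a, haK⟩
      · constructor
        · intro h1; exact absurd (hAK h1) haK
        · intro h1
          exfalso
          apply haK
          have h2 := K.mul_mem (K.mul_mem (K.inv_mem k.2) (hAK h1)) k.2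
          have h3 : (k : G)⁻¹ * (k * a * (k : G)⁻¹) * k = a := by group
          rwa [h3] at h2
    · intro h a
      exact h a
  let ι : normalizer ((A.subgroupOf K : Subgroup K) : Set K) →* normalizer (A : Set G) :=
    { toFun := fun x => ⟨((x : K) : G), (hN1 _).1 x.2⟩
      map_one' := rfl
      map_mul' := fun _ _ => rfl }
  have hι : Function.Surjective ι := fun x => ⟨⟨⟨x, hNK x.2⟩, (hN1 _).2 x.2⟩, rfl⟩
  have hIrr : Irr (A.subgroupOf K) := by
    intro W hW hWn
    rcases hI (W.map K.subtype) (by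
      rintro _ ⟨w, hw, rfl⟩
      exact hW hw) (by
      rintro g hg _ ⟨w, hw, rfl⟩
      exact ⟨⟨g, hNK hg⟩ * w * ⟨g, hNK hg⟩⁻¹, hWn ⟨g, hNK hg⟩ ((hN1 _).2 hg) w hw, rfl⟩) with h | h
    · left
      rw [(Subgroup.map_eq_bot_iff_of_injective W K.subtype_injective)] at h
      exact h
    · right
      apply le_antisymm hW
      intro x hx
      have h1 : (x : G) ∈ W.map K.subtype := by rw [h]; exact hx
      obtain ⟨w, hw, hwx⟩ := h1
      have h2 : w = x := Subtype.ext hwx
      rw [← h2]; exact hw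
  obtain ⟨F, ψ, H⟩ := ident' (V := A.subgroupOf K) hcardV
    (fun v hv => Subtype.ext (hsq v hv)) (fun a ha b hb => Subtype.ext (hab a ha b hb))
    (fun g hg => hcent g fun v hv => congrArg Subtype.val (hg ⟨v, hAK hv⟩ hv))
    (f.comp ι) (hf.comp hι) (by
      ext x
      rw [MonoidHom.mem_ker]
      show f (ι x) = 1 ↔ _
      rw [← MonoidHom.mem_ker, hk]
      rfl) hIrr
  exact ⟨K, hK, hKs, fun h => hKna fun x hx y hy =>
    congrArg Subtype.val (h ⟨x, hx⟩ ⟨y, hy⟩ : (⟨x, hx⟩ : K) * ⟨y, hy⟩ = ⟨y, hy⟩ * ⟨x, hx⟩), hCK,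
    A.subgroupOf K, F, ψ, H, hIrr⟩

end Cfsg.Agent.H338.L5
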