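import Cfsg.Agent.H338.Weights
import Cfsg.Agent.H338.LocSyl

/-!
# Lower bound for the degree from the orbits on weights (helper338)
-/

set_option autoImplicit false
open scoped Matrix

namespace Cfsg.Agent.H338.Weights

open Cfsg.Agent.H338.Dual2

section count

variable {F ι E : Type*} [Field F] [Fintype ι] [DecidableEq ι] [CommGroup E] [Finite E] [Fintype E]

theorem card_weights_le (h2 : (2 : F) ≠ 0) (hsq : ∀ e : E, e * e = 1)
    (ρ : E →* Matrix ι ι F) : {l : Dl E | P F ρ l ≠ 0}.ncard ≤ Fintype.card ι := by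
  classical
  set S := {l : Dl E | P F ρ l ≠ 0} with hS
  have hex : ∀ l : S, ∃ v : ι → F, P F ρ (l : Dl E) *ᵥ v ≠ 0 := by
    intro l
    by_contra hcon
    push Not at hcon
    apply l.2
    apply Matrix.ext_of_mulVec_single
    intro i
    rw [hcon, Matrix.zero_mulVec]
  choose v hv using hex
  let u : S → (ι → F) := fun l => P F ρ (l : Dl E) *ᵥ v l
  have hu : LinearIndependent F u := by
    have : Fintype S := Fintype.ofFinite S
    rw [Fintype.linearIndependent_iff]
    intro c hc i
    have h1 : P F ρ (i : Dl E) *ᵥ (∑ l : S, c l • u l) = 0 := by rw [hc, Matrix.mulVec_zero]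
    rw [Matrix.mulVec_sum, Finset.sum_eq_single i] at h1
    · rw [Matrix.mulVec_smul] at h1
      have h3 : P F ρ (i : Dl E) *ᵥ u i = u i := by
        show P F ρ (i : Dl E) *ᵥ (P F ρ (i : Dl E) *ᵥ v i) = _
        rw [Matrix.mulVec_mulVec, P_mul_P_same h2 hsq]
      rw [h3] at h1
      rcases smul_eq_zero.1 h1 with h4 | h4
      · exact h4
      · exact absurd h4 (hv i)
    · intro j _ hj
      rw [Matrix.mulVec_smul]
      have h3 : P F ρ (i : Dl E) *ᵥ u j = 0 := by
        show P F ρ (i : Dl E) *ᵥ (P F ρ (j : Dl E) *ᵥ v j) = _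
        rw [Matrix.mulVec_mulVec, P_mul_P_ne ρ (fun h => hj (Subtype.ext h.symm)),
          Matrix.zero_mulVec]
      rw [h3, smul_zero]
    · intro h
      exact absurd (Finset.mem_univ _) h
  have : Fintype S := Fintype.ofFinite S
  have h1 := hu.fintype_card_le_finrank
  rw [Module.finrank_fintype_fun_eq_card, ← Nat.card_eq_fintype_card] at h1
  exact h1

end count

open Subgroup

/-- If `K` is a matrix group in odd characteristic, `V` an elementary abelian subgroup, and the
orbits of `X = N(V)/V` on the non-trivial characters of `V` have length at least `m`, the degree is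
at least `m`. -/
theorem le_degree {K : Type*} [Group K] [Finite K] {X : Type*} [Group X] {V : Subgroup K}
    (f : normalizer (V : Set K) →* X) (hf : Function.Surjective f)
    (hk : f.ker = V.subgroupOf (normalizer (V : Set K)))
    (hab : ∀ a ∈ V, ∀ b ∈ V, a * b = b * a) (hsq : ∀ v ∈ V, v * v = 1) (hV : V ≠ ⊥) {m : ℕ}
    (horb : ∀ χ : V →* ℤˣ, χ ≠ 1 →
      m ≤ Nat.card (Set.range fun g : X => χ.comp (LocSyl.act f hf hk hab g).toMonoidHom))
    {F ι : Type*} [Field F] [Fintype ι] [DecidableEq ι] (h2 : (2 : F) ≠ 0)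
    (θ : K →* Matrix.GeneralLinearGroup ι F) (hθ : Function.Injective θ) : m ≤ Fintype.card ι := by
  classical
  let inst : CommGroup V :=
    { (inferInstance : Group V) with mul_comm := fun a b => Subtype.ext (hab a a.2 b b.2) }
  have : Fintype V := Fintype.ofFinite V
  have : Fintype (Dl V) := Fintype.ofFinite _
  have hsqV : ∀ e : V, e * e = 1 := fun e => Subtype.ext (hsq e e.2)
  let ρ : V →* Matrix ι ι F := (Units.coeHom (Matrix ι ι F)).comp (θ.comp V.subtype)
  -- a non-trivial weight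
  obtain ⟨l, hl1, hl⟩ : ∃ l : Dl V, l ≠ 1 ∧ P F ρ l ≠ 0 := by
    by_contra hcon
    push Not at hcon
    have h3 := sum_P (F := F) h2 hsqV ρ
    rw [Finset.sum_eq_single 1 (fun l _ hl => hcon l hl) (fun h => absurd (Finset.mem_univ _) h)]
      at h3
    apply hV
    rw [eq_bot_iff]
    intro v hv
    rw [mem_bot]
    have h4 : ρ ⟨v, hv⟩ = 1 := by
      have h5 := rho_mul_P (F := F) ρ 1 ⟨v, hv⟩
      rw [h3, mul_one, dl_one_apply] at h5
      simpa using h5
    apply hθ
    rw [map_one]
    exact Units.ext h4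
  have h4 := horb l hl1
  refine le_trans h4 ?_
  have h5 := card_weights_le (F := F) h2 hsqV ρ
  refine le_trans ?_ h5
  have hsub : (Set.range fun g : X => (MonoidHom.comp (l : V →* ℤˣ)
      (LocSyl.act f hf hk hab g).toMonoidHom : V →* ℤˣ)) ⊆ {l : Dl V | P F ρ l ≠ 0} := by
    rintro _ ⟨g, rfl⟩
    obtain ⟨x, hx⟩ := hf g⁻¹
    show P F ρ _ ≠ 0
    let y : Matrix ι ι F := ((θ (x : K) : Matrix.GeneralLinearGroup ι F) : Matrix ι ι F)
    let z : Matrix ι ι F := ((θ (x : K)⁻¹ : Matrix.GeneralLinearGroup ι F) : Matrix ι ι F)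
    have hyz : y * z = 1 := by
      have h6 : θ (x : K) * θ (x : K)⁻¹ = 1 := by rw [← map_mul, mul_inv_cancel, map_one]
      exact congrArg Units.val h6
    have hzy : z * y = 1 := by
      have h6 : θ (x : K)⁻¹ * θ (x : K) = 1 := by rw [← map_mul, inv_mul_cancel, map_one]
      exact congrArg Units.val h6
    have hconj := conj_P (F := F) ρ l (LocSyl.act f hf hk hab g⁻¹ : V ≃* V) y z (by
      intro e
      have h6 : ((LocSyl.act f hf hk hab g⁻¹ e : V) : K) = x * e * (x : K)⁻¹ := by
        rw [← hx]; exact LocSyl.act_apply f hf hk hab x e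
      show ((θ (x : K) * θ (e : K) : Matrix.GeneralLinearGroup ι F) : Matrix ι ι F) =
        ((θ ((LocSyl.act f hf hk hab g⁻¹ e : V) : K) * θ (x : K) :
          Matrix.GeneralLinearGroup ι F) : Matrix ι ι F)
      rw [← map_mul, ← map_mul, h6, inv_mul_cancel_right])
    intro h0
    have h7 : (MonoidHom.comp (l : V →* ℤˣ) (LocSyl.act f hf hk hab g⁻¹ : V ≃* V).symm.toMonoidHom :
        V →* ℤˣ) = (MonoidHom.comp (l : V →* ℤˣ) (LocSyl.act f hf hk hab g).toMonoidHom) := by
      ext e
      show ((l ((LocSyl.act f hf hk hab g⁻¹ : V ≃* V).symm e) : ℤˣ) : ℤ) =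
        ((l (LocSyl.act f hf hk hab g e) : ℤˣ) : ℤ)
      have h8 : (LocSyl.act f hf hk hab g⁻¹ : V ≃* V).symm e = LocSyl.act f hf hk hab g e := by
        rw [MulEquiv.symm_apply_eq, map_inv]
        exact (MulAut.inv_apply_self _ (LocSyl.act f hf hk hab g) e).symm
      rw [h8]
    have h8 : y * P F ρ l * z = 0 := by
      rw [hconj]
      have h9 : P F ρ (MonoidHom.comp (l : V →* ℤˣ)
        (LocSyl.act f hf hk hab g⁻¹ : V ≃* V).symm.toMonoidHom) = 0 := by rw [h7]; exact h0
      rw [h9, zero_mul]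
    apply hl
    calc P F ρ l = (z * y) * P F ρ l * (z * y) := by rw [hzy, one_mul, mul_one]
      _ = z * (y * P F ρ l * z) * y := by simp only [mul_assoc]
      _ = 0 := by rw [h8, mul_zero, zero_mul]
  exact Set.ncard_le_ncard hsub (Set.toFinite _)

end Cfsg.Agent.H338.Weights
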