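import Cfsg.Agent.H338.L5Form
import Cfsg.Agent.H338.ClassicalOdd
import Cfsg.Agent.H338.WeightCount

/-!
# The hypotheses for the elimination (helper338)
-/

set_option autoImplicit false

namespace Cfsg.Agent.H338.L5

open Matrix Subgroup Cfsg.Agent.H338.LocSyl Cfsg.Agent.H338.ClassicalOdd

variable {G : Type*} [Group G] {V : Subgroup G} {F : normalizer (V : Set G) →* X} {ψ : G → M5}

theorem Nat5.comm (H : Nat5 V F ψ) : ∀ a ∈ V, ∀ b ∈ V, a * b = b * a :=
  fun _ ha _ hb => H.dat.A_comm ha hb

theorem Nat5.ne_bot [Finite G] (H : Nat5 V F ψ) : V ≠ ⊥ := by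
  rintro rfl
  have := H.card_V
  rw [Subgroup.card_bot] at this
  norm_num at this

theorem Nat5.inj' (H : Nat5 V F ψ) {v w : G} (hv : v ∈ V) (hw : w ∈ V) (h : ψ v = ψ w) : v = w := by
  have h3 : ψ (v * w) = 0 := by
    rw [H.add _ hv _ hw, h]
    ext i j; exact CharTwo.add_self_eq_zero _
  have h4 := H.inj _ (V.mul_mem hv hw) h3
  exact mul_right_cancel (h4.trans (H.sq _ hw).symm)

/-- A good element of order 31. -/
theorem Nat5.exists_y [Finite G] (H : Nat5 V F ψ) : ∃ y : normalizer (V : Set G), y ^ 31 = 1 ∧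
    F y = Y31 := by
  obtain ⟨y0, hy0⟩ := H.surj Y31
  have h1 : F (y0 ^ 31) = 1 := by rw [map_pow, hy0, Y31_pow]
  have h2 : ((y0 ^ 31 : normalizer (V : Set G)) : G) ∈ V := (H.ker _).1 h1
  have h3 : (y0 ^ 31) * (y0 ^ 31) = 1 := Subtype.ext (H.sq _ h2)
  refine ⟨y0 ^ 32, ?_, ?_⟩
  · rw [← pow_mul, mul_comm, pow_mul, show 32 = 2 * 16 by norm_num, pow_mul, pow_two, h3, one_pow]
  · rw [map_pow, hy0, show 32 = 31 + 1 by norm_num, pow_succ, Y31_pow, one_mul]

theorem Nat5.fix31 (H : Nat5 V F ψ) {y : normalizer (V : Set G)} (hy : F y = Y31) {v : G}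
    (hv : v ∈ V) (h : (y : G) * v = v * y) : v = 1 := by
  have h1 := H.conj y v hv
  have h2 : (y : G) * v * (y : G)⁻¹ = v := by rw [h]; group
  rw [h2, hy] at h1
  obtain ⟨m, hm⟩ := AL5_of (H.alt v hv)
  rw [hm] at h1
  have h3 := Y31_fix m h1.symm
  apply H.inj v hv
  rw [hm, h3]
  ext i j
  fin_cases i <;> fin_cases j <;> rfl

theorem Nat5.hyp [Finite G] (H : Nat5 V F ψ)
    (hirr : ∀ W : Subgroup G, W ≤ V → (∀ g ∈ normalizer (V : Set G), ∀ w ∈ W, g * w * g⁻¹ ∈ W) →
      W = ⊥ ∨ W = V) : ∃ y, Hyp V 31 y := by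
  obtain ⟨y, hy, hyF⟩ := H.exists_y
  refine ⟨y, H.sq, H.comm, H.ne_bot, by norm_num, by norm_num, ?_, fun v hv => conj_mem_V' y.2 hv,
    fun v hv h => H.fix31 hyF hv h, hirr, ?_⟩
  · exact congrArg Subtype.val hy
  · rintro ⟨β, h1, h2, h3, h4, h5⟩
    classical
    have hex : ∀ B : M5, ∃ v : V, B ∈ Alt → ψ v = B := by
      intro B
      by_cases hB : B ∈ Alt
      · obtain ⟨v, hv, h⟩ := H.onto B hB
        exact ⟨⟨v, hv⟩, fun _ => h⟩
      · exact ⟨1, fun h => absurd h hB⟩
    choose s hs using hex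
    have hsu : ∀ v : V, s (ψ v) = v := fun v =>
      Subtype.ext (H.inj' (s (ψ v)).2 v.2 (hs _ (H.alt v v.2)))
    have hadd : ∀ a ∈ Alt, ∀ b ∈ Alt, s (a + b) = s a * s b := by
      intro a ha b hb
      apply Subtype.ext
      apply H.inj' (s (a + b)).2 (V.mul_mem (s a).2 (s b).2)
      rw [hs _ (Alt.add_mem ha hb), H.add _ (s a).2 _ (s b).2, hs a ha, hs b hb]
    have key := no_form (fun a b => β (s a) (s b))
      (fun a ha b hb c hc => by rw [hadd a ha b hb, h1])
      (fun a ha b hb c hc => by rw [hadd b hb c hc, h2])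
      (fun a ha => h3 _)
      (fun g a ha b hb => by
        obtain ⟨n, rfl⟩ := H.surj g
        have hga : ∀ a ∈ Alt, (F n).1 * a * ((F n).1)ᵀ ∈ Alt := by
          intro a ha
          rw [← hs a ha, ← H.conj n _ (s a).2]
          exact H.alt _ (conj_mem_V' n.2 (s a).2)
        apply h4 (n : G) n.2
        · apply H.inj' (s _).2 (conj_mem_V' n.2 (s a).2)
          rw [hs _ (hga a ha), H.conj n _ (s a).2, hs a ha]
        · apply H.inj' (s _).2 (conj_mem_V' n.2 (s b).2)
          rw [hs _ (hga b hb), H.conj n _ (s b).2, hs b hb])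
    apply H.ne_bot
    rw [eq_bot_iff]
    intro v hv
    rw [mem_bot]
    have h6 := h5 ⟨v, hv⟩ (fun b => by
      have := key (ψ v) (H.alt v hv) (ψ b) (H.alt b b.2)
      rw [hsu b] at this
      have h7 := hsu ⟨v, hv⟩
      rw [h7] at this
      exact this)
    exact congrArg Subtype.val h6

theorem Nat5.act (H : Nat5 V F ψ) (g : X) (v : V) :
    ψ ((LocSyl.act F H.surj H.ker_eq H.comm g v : V) : G) = g.1 * ψ v * (g.1)ᵀ := by
  obtain ⟨n, rfl⟩ := H.surj g
  rw [LocSyl.act_apply]
  exact H.conj n v v.2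

/-- A function on a finite set of prime power order. -/
theorem card_modEq {α : Type*} [Finite α] {p : ℕ} [Fact p.Prime] (f : Function.End α)
    (hf : f ^ p = 1) : Nat.card α ≡ Nat.card (Function.fixedPoints f) [MOD p] := by
  classical
  have : Fintype α := Fintype.ofFinite α
  have h := Equiv.Perm.card_fixedPoints_modEq (f := f) (p := p) (n := 1) (by rw [pow_one]; exact hf)
  rw [Nat.card_eq_fintype_card, Nat.card_eq_fintype_card]
  exact h

theorem Nat5.orbit [Finite G] (H : Nat5 V F ψ) (χ : V →* ℤˣ) (hχ : χ ≠ 1) :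
    155 ≤ Nat.card (Set.range fun g : X =>
      χ.comp (LocSyl.act F H.surj H.ker_eq H.comm g).toMonoidHom) := by
  classical
  have hcomm := H.comm
  set A := LocSyl.act F H.surj H.ker_eq H.comm with hA
  let inst : CommGroup V :=
    { (inferInstance : Group V) with mul_comm := fun a b => Subtype.ext (hcomm a a.2 b b.2) }
  let O := Set.range fun g : X => χ.comp (A g).toMonoidHom
  have : Finite O := Set.finite_range _ |>.to_subtype
  have hOne : ∀ x ∈ O, x ≠ 1 := by
    rintro _ ⟨g, rfl⟩ h
    apply hχ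
    ext v
    have h1 := congrArg (fun z : V →* ℤˣ => z ((A g).symm v)) h
    have h2 : χ (A g ((A g).symm v)) = 1 := h1
    rw [MulEquiv.apply_symm_apply] at h2
    rw [h2]
    rfl
  -- the action of `h`
  let st : X → Function.End O := fun h x => ⟨x.1.comp (A h).toMonoidHom, by
    obtain ⟨g, hg⟩ := x.2
    refine ⟨g * h, ?_⟩
    show χ.comp (A (g * h)).toMonoidHom = _
    rw [← hg, map_mul]
    rfl⟩
  have hst : ∀ (h : X) (n : ℕ) (x : O), (((st h) ^ n) x).1 = x.1.comp (A (h ^ n)).toMonoidHom := by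
    intro h n
    induction n with
    | zero =>
      intro x
      rw [pow_zero, pow_zero, map_one]
      rfl
    | succ n ih =>
      intro x
      rw [pow_succ]
      show (((st h) ^ n) (st h x)).1 = _
      rw [ih, pow_succ', map_mul]
      rfl
  have hpow : ∀ (h : X) (n : ℕ), h ^ n = 1 → (st h) ^ n = 1 := by
    intro h n hn
    funext x
    apply Subtype.ext
    rw [hst, hn, map_one]
    rfl
  -- the commutator map
  let au : X → V →* V := fun h =>
    { toFun := fun v => A h v * v⁻¹
      map_one' := by rw [map_one, inv_one, mul_one]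
      map_mul' := fun a b => by
        rw [map_mul, mul_inv]
        exact mul_mul_mul_comm _ _ _ _ }
  have hfix : ∀ (h : X) (x : O), st h x = x → ∀ v ∈ (au h).range, x.1 v = 1 := by
    rintro h x hx _ ⟨v, rfl⟩
    have h1 : x.1 (A h v) = x.1 v := congrArg (fun z : O => z.1 v) hx
    show x.1 (A h v * v⁻¹) = 1
    rw [map_mul, map_inv, h1, mul_inv_cancel]
  have hker : ∀ (h : X) (v : V), v ∈ (au h).ker ↔ A h v = v := by
    intro h v
    rw [MonoidHom.mem_ker]
    show A h v * v⁻¹ = 1 ↔ _
    rw [mul_inv_eq_one]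
  have hcr : ∀ h : X, (au h).range.index = Nat.card (au h).ker := by
    intro h
    have h1 := (au h).range.card_mul_index
    have h2 := (au h).ker.card_mul_index
    rw [Subgroup.index_ker] at h2
    have h3 : 0 < Nat.card (au h).range := Nat.card_pos
    apply Nat.eq_of_mul_eq_mul_left h3
    rw [h1, ← h2, mul_comm]
  -- order 31
  have m31 : Nat.card O ≡ 0 [MOD 31] := by
    have : Fact (Nat.Prime 31) := ⟨by norm_num⟩
    have h1 := card_modEq (st Y31) (hpow _ 31 Y31_pow)
    have h2 : Nat.card (Function.fixedPoints (st Y31)) = 0 := by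
      rw [Nat.card_eq_zero]
      left
      constructor
      rintro ⟨x, hx⟩
      have h3 := hfix Y31 x hx
      have h4 : (au Y31).ker = ⊥ := by
        rw [eq_bot_iff]
        intro v hv
        rw [hker] at hv
        have h5 := H.act Y31 v
        rw [← hA, hv] at h5
        obtain ⟨m, hm⟩ := AL5_of (H.alt v v.2)
        rw [hm] at h5
        have h6 := Y31_fix m h5.symm
        rw [mem_bot]
        apply Subtype.ext
        apply H.inj v v.2
        rw [hm, h6]
        ext i j
        fin_cases i <;> fin_cases j <;> rfl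
      have h5 : (au Y31).range = ⊤ := by
        rw [← Subgroup.index_eq_one, hcr, h4, Subgroup.card_bot]
      apply hOne x.1 x.2
      ext v
      have h6 := h3 v (by rw [h5]; trivial)
      rw [h6]; rfl
    rw [h2] at h1
    exact h1
  -- order 7
  have m7 : Nat.card O ≡ 0 [MOD 7] ∨ Nat.card O ≡ 1 [MOD 7] := by
    have : Fact (Nat.Prime 7) := ⟨by norm_num⟩
    have h1 := card_modEq (st Y7) (hpow _ 7 Y7_pow)
    have hk2 : Nat.card (au Y7).ker ≤ 2 := by
      have hmem : ∀ v : (au Y7).ker, ψ (v : V) = 0 ∨ ψ (v : V) = AL5 ![0, 0, 0, 0, 0, 0, 0, 0, 0, 1] := by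
        rintro ⟨v, hv⟩
        rw [hker] at hv
        have h5 := H.act Y7 v
        rw [← hA, hv] at h5
        obtain ⟨m, hm⟩ := AL5_of (H.alt v v.2)
        rw [hm] at h5
        show ψ (v : G) = 0 ∨ ψ (v : G) = _
        rcases Y7_fix m h5.symm with h6 | h6
        · left; rw [hm, h6]
          ext i j
          fin_cases i <;> fin_cases j <;> rfl
        · right; rw [hm, h6]
      let ff : (au Y7).ker → Bool := fun v => decide (ψ (v : V) = 0)
      have hff : Function.Injective ff := by
        intro v w h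
        have h2 : (ψ ((v : V) : G) = 0) ↔ (ψ ((w : V) : G) = 0) := by
          simpa [ff] using h
        have h3 : ψ ((v : V) : G) = ψ ((w : V) : G) := by
          by_cases h4 : ψ ((v : V) : G) = 0
          · rw [h4, h2.1 h4]
          · have h5 : ψ ((w : V) : G) ≠ 0 := fun h => h4 (h2.2 h)
            rw [(hmem v).resolve_left h4, (hmem w).resolve_left h5]
        exact Subtype.ext (Subtype.ext (H.inj' (v : V).2 (w : V).2 h3))
      have := Nat.card_le_card_of_injective ff hff
      have hb : Nat.card Bool = 2 := by rw [Nat.card_eq_fintype_card, Fintype.card_bool]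
      rwa [hb] at this
    have hidx : ∀ v w : V, v ∉ (au Y7).range → w ∉ (au Y7).range → v * w ∈ (au Y7).range := by
      intro v w hv hw
      have h2 : (au Y7).range.index = 2 := by
        have h3 : (au Y7).range.index ≠ 1 := fun h => hv (by
          rw [Subgroup.index_eq_one] at h
          rw [h]; trivial)
        have h4 := hcr Y7
        have h5 : (au Y7).range.index ≠ 0 := Subgroup.index_ne_zero_of_finite
        omega
      rw [Subgroup.mul_mem_iff_of_index_two h2]
      exact ⟨fun h => absurd h hv, fun h => absurd h hw⟩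
    have hone : Nat.card (Function.fixedPoints (st Y7)) ≤ 1 := by
      rw [Finite.card_le_one_iff_subsingleton]
      constructor
      rintro ⟨x, hx⟩ ⟨y, hy⟩
      have hval : ∀ x : O, st Y7 x = x → ∀ v, v ∉ (au Y7).range → x.1 v = -1 := by
        intro x hx v hv
        rcases Int.units_eq_one_or (x.1 v) with h | h
        · exfalso
          apply hOne x.1 x.2
          ext w
          by_cases hw : w ∈ (au Y7).range
          · rw [hfix Y7 x hx w hw]; rfl
          · have h3 := hfix Y7 x hx _ (hidx v w hv hw)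
            rw [map_mul, h, one_mul] at h3
            rw [h3]; rfl
        · exact h
      apply Subtype.ext
      apply Subtype.ext
      show x.1 = y.1
      ext v
      by_cases hv : v ∈ (au Y7).range
      · rw [hfix Y7 x hx v hv, hfix Y7 y hy v hv]
      · rw [hval x hx v hv, hval y hy v hv]
    rcases Nat.eq_zero_or_pos (Nat.card (Function.fixedPoints (st Y7))) with h | h
    · left; rw [h] at h1; exact h1
    · right
      have h2 : Nat.card (Function.fixedPoints (st Y7)) = 1 := by omega
      rw [h2] at h1; exact h1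
  have hpos : 0 < Nat.card O := by
    have : Nonempty O := ⟨⟨_, ⟨1, rfl⟩⟩⟩
    exact Nat.card_pos
  show 155 ≤ Nat.card O
  have h31 : Nat.card O % 31 = 0 := m31
  have h7 : Nat.card O % 7 = 0 ∨ Nat.card O % 7 = 1 := by
    rcases m7 with h | h
    · left; exact h
    · right; exact h
  omega

theorem Nat5.le_degree [Finite G] (H : Nat5 V F ψ) {K ι : Type*} [Field K] [Fintype ι]
    [DecidableEq ι] (h2 : (2 : K) ≠ 0) (θ : G →* Matrix.GeneralLinearGroup ι K)
    (hθ : Function.Injective θ) : 155 ≤ Fintype.card ι :=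
  Weights.le_degree F H.surj H.ker_eq H.comm H.sq H.ne_bot (fun χ hχ => H.orbit χ hχ) h2 θ hθ

end Cfsg.Agent.H338.L5
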