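import Cfsg.Agent.H338.L5Psl
import Cfsg.Agent.H338.L5Hyp
import Cfsg.Agent.H338.Families
import Cfsg.Agent.H338.AltDeg

/-!
# `2^10 : L5(2)`: elimination of the families (helper338)
-/

set_option autoImplicit false

namespace Cfsg.Agent.H338.L5

open Matrix Subgroup Cfsg Cfsg.Agent.OrdDiv Cfsg.Agent.H338.Families
  Cfsg.Agent.H338.ClassicalOdd Cfsg.Agent.H338.CharTwoOrd

universe u

variable {G : Type u} [Group G] {V : Subgroup G} {F : normalizer (V : Set G) →* X} {ψ : G → M5}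

theorem Nat5.dvd [Finite G] (H : Nat5 V F ψ) : 2 ^ 20 * 9765 ∣ Nat.card G := by
  rw [← H.card_N]
  exact Subgroup.card_subgroup_dvd_card _

theorem Nat5.dvd31 [Finite G] (H : Nat5 V F ψ) : 31 ∣ Nat.card G :=
  dvd_trans (by norm_num) H.dvd

theorem Nat5.dvd7 [Finite G] (H : Nat5 V F ψ) : 7 ∣ Nat.card G :=
  dvd_trans (by norm_num) H.dvd

theorem Nat5.dvd20 [Finite G] (H : Nat5 V F ψ) : 2 ^ 20 ∣ Nat.card G :=
  dvd_trans (by norm_num) H.dvd

/-- Irreducibility. -/
def Irr (V : Subgroup G) : Prop := ∀ W : Subgroup G, W ≤ V →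
  (∀ g ∈ normalizer (V : Set G), ∀ w ∈ W, g * w * g⁻¹ ∈ W) → W = ⊥ ∨ W = V

theorem Nat5.card_centralizer [Finite G] (H : Nat5 V F ψ) :
    Nat.card (centralizer (V : Set G)) ≤ 2 ^ 10 := by
  rw [← H.card_V]
  apply Subgroup.card_le_of_le
  intro g hg
  apply H.cent
  intro v hv
  exact (mem_centralizer_iff.1 hg v hv).symm

theorem Nat5.no_oddCl [Finite G] (H : Nat5 V F ψ) (hirr : Irr V) (h : OddCl G) : False := by
  obtain ⟨y, hy⟩ := H.hyp hirr
  have key : ¬ 2 ^ (31 - 1) ≤ Nat.card (centralizer (V : Set G)) := by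
    have h1 := H.card_centralizer
    intro h2
    have h3 := h2.trans h1
    norm_num at h3
  apply key
  obtain ⟨F, _, _, hF, h | h | h | h | h | h⟩ := h
  · obtain ⟨n, ⟨e⟩⟩ := h
    exact psl hF hy e
  · obtain ⟨n, ⟨e⟩⟩ := h
    exact psp hF hy e
  · obtain ⟨n, q, hq, ⟨e⟩⟩ := h
    exact psu hF hy hq e
  · obtain ⟨n, ⟨e⟩⟩ := h
    exact pomegaOdd hF hy e
  · obtain ⟨n, ⟨e⟩⟩ := h
    exact pomegaPlus hF hy e
  · obtain ⟨n, s, t, ⟨e⟩⟩ := h
    exact pomegaMinus hF hy e

theorem Nat5.no_oddEx [Finite G] (H : Nat5 V F ψ) {d : ℕ}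
    (hd : (d = 248 ∧ 2 ^ 24 ∣ Nat.card G) ∨ d ≤ 133) (h : OddEx G d) : False := by
  obtain ⟨F, _, _, ι, _, _, h2, hc, θ, hθ⟩ := h
  rcases hd with hd | hd
  · exact H.not22 (dvd_trans (by norm_num) hd.2)
  · have := H.le_degree h2 θ hθ
    omega

theorem Nat5.no_alt [Finite G] (H : Nat5 V F ψ) {n : ℕ} (hn : 5 ≤ n)
    (e : G ≃* alternatingGroup (Fin n)) : False := by
  have : Fact (Nat.Prime 3) := ⟨Nat.prime_three⟩
  have h2 : (2 : ZMod 3) ≠ 0 := by
    intro h
    have h3 : ((2 : ℕ) : ZMod 3) = 0 := by exact_mod_cast h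
    rw [ZMod.natCast_eq_zero_iff] at h3
    norm_num at h3
  have h1 := H.le_degree h2 ((AltDeg.altHom n (ZMod 3)).comp e.toMonoidHom)
    ((AltDeg.altHom_injective n (ZMod 3)).comp e.injective)
  rw [Fintype.card_fin] at h1
  have h3 := alt_card hn e
  apply H.not22
  have h4 : 2 * 2 ^ 22 ∣ 2 * Nat.card G := by
    rw [← h3]
    exact dvd_trans (by norm_num [Nat.factorial]) (Nat.factorial_dvd_factorial (show 32 ≤ n by omega))
  exact Nat.dvd_of_mul_dvd_mul_left (by norm_num) h4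

theorem charTwo {F : Type} [Field F] [Fintype F] {k : ℕ} (hk : k ≠ 0)
    (hF : Fintype.card F = 2 ^ k) : CharP F 2 := by
  obtain ⟨p, hp⟩ := CharP.exists F
  obtain ⟨n, hpp, hc⟩ := FiniteField.card F p
  have h1 : p = 2 := by
    have h2 : p ∣ 2 ^ k := by
      rw [← hF, hc]
      exact dvd_pow_self p n.ne_zero
    exact (Nat.prime_dvd_prime_iff_eq hpp Nat.prime_two).1 (hpp.dvd_of_dvd_pow h2)
  subst h1
  exact hp

theorem Nat5.evenCl20 [Finite G] (H : Nat5 V F ψ) (h : EvenCl G 20) :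
    ∃ (F : Type) (_ : Field F) (_ : Fintype F), Fintype.card F = 2 ∧
      Nonempty (G ≃* POmega F (quadFormPlus 5 F)) := by
  have h7 := H.dvd7
  have h31 := H.dvd31
  obtain ⟨F, _, _, k, h | h | h | h | h⟩ := h
  · exfalso
    obtain ⟨n, hn, hF, hk, ⟨e⟩⟩ := h
    rw [Nat.card_congr e.toEquiv] at h7
    have hc := Cfsg.Agent.S0243.result (F := F) rfl n hn
    rw [Fin.prod_univ_eq_prod_range (fun i => Fintype.card F ^ n - Fintype.card F ^ i) n,
      ← prod_list, hF] at hc
    change _ = glN n (2 ^ k) at hc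
    have h1 : 7 ∣ glN n (2 ^ k) := by
      rw [← hc]
      exact Dvd.dvd.mul_left (Dvd.dvd.mul_left h7 _) _
    have hn7 : n ≤ 6 := by
      by_contra hcon
      have h3 : 7 * 6 ≤ n * (n - 1) := Nat.mul_le_mul (by omega) (by omega)
      have h4 : 21 ≤ n * (n - 1) / 2 := by omega
      have h5 : k ≠ 0 := by rintro rfl; omega
      have h6 : 1 * 21 ≤ k * (n * (n - 1) / 2) := Nat.mul_le_mul (by omega) h4
      omega
    interval_cases n
    · obtain rfl : k = 20 := by omega
      revert h1; decide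
    · omega
    · omega
    · obtain rfl : k = 2 := by omega
      have := charTwo two_ne_zero hF
      exact H.no_psl 2 3 (by rw [hF]; norm_num) e
    · omega
  · exfalso
    obtain ⟨m, hm, hF, hk, ⟨e⟩⟩ := h
    rw [Nat.card_congr e.toEquiv] at h7
    have hm5 : m < 5 := by
      by_contra hcon
      have h3 : 5 * 5 ≤ m * m := Nat.mul_le_mul (by omega) (by omega)
      have h5 : k ≠ 0 := by rintro rfl; omega
      have h6 : 1 * 25 ≤ k * m ^ 2 := Nat.mul_le_mul (by omega) (by rw [pow_two]; exact h3)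
      omega
    have hc1 := Cfsg.Agent.S0245.result (F := F) rfl m
    have hc3 := Subgroup.card_eq_card_quotient_mul_card_subgroup
      (Subgroup.center (Matrix.symplecticGroup (Fin m) F))
    rw [← prod_list (fun i => Fintype.card F ^ (2 * (i + 1)) - 1)] at hc1
    rw [hc1, hF] at hc3
    change _ * prB (2 ^ k) m = Nat.card (PSp m F) * _ at hc3
    have h1 : 7 ∣ (2 ^ k) ^ (m ^ 2) * prB (2 ^ k) m := by
      rw [hc3]
      exact Dvd.dvd.mul_right h7 _
    interval_cases m
    · obtain rfl : k = 5 := by omega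
      revert h1; decide
    · omega
    · omega
  · exfalso
    obtain ⟨n, hn, hF, hk, ⟨e⟩⟩ := h
    rw [Nat.card_congr e.toEquiv] at h31
    have hc := Cfsg.Agent.S0280.result hF n (by omega)
    rw [← prod_list] at hc
    have h1 : 31 ∣ (2 ^ k) ^ (n * (n - 1) / 2) * (List.map (fun i =>
        if Even i then (2 ^ k) ^ (i + 1) + 1 else (2 ^ k) ^ (i + 1) - 1) (List.range n)).prod := by
      rw [← hc]
      exact Dvd.dvd.mul_left (Dvd.dvd.mul_left h31 _) _
    have hn7 : n ≤ 6 := by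
      by_contra hcon
      have h3 : 7 * 6 ≤ n * (n - 1) := Nat.mul_le_mul (by omega) (by omega)
      have h4 : 21 ≤ n * (n - 1) / 2 := by omega
      have h5 : k ≠ 0 := by rintro rfl; omega
      have h6 : 1 * 21 ≤ k * (n * (n - 1) / 2) := Nat.mul_le_mul (by omega) h4
      omega
    interval_cases n
    · omega
    · omega
    · obtain rfl : k = 2 := by omega
      revert h1; decide
    · omega
  · obtain ⟨m, hm, hF, hk, ⟨e⟩⟩ := h
    have hm5 : m < 6 := by
      by_contra hcon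
      have h3 : 6 * 5 ≤ m * (m - 1) := Nat.mul_le_mul (by omega) (by omega)
      have h5 : k ≠ 0 := by rintro rfl; omega
      have h6 : 1 * 30 ≤ k * (m * (m - 1)) := Nat.mul_le_mul (by omega) h3
      omega
    interval_cases m
    · omega
    · obtain rfl : k = 1 := by omega
      exact ⟨F, inferInstance, inferInstance, hF, ⟨e⟩⟩
  · exfalso
    obtain ⟨m, s, t, hm, hF, hk, hst, ⟨e⟩⟩ := h
    rw [Nat.card_congr e.toEquiv] at h31
    have hc := Cfsg.Agent.S0294.result (F := F) rfl m hm s t hst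
    rw [← prod_list (fun i => Fintype.card F ^ (2 * (i + 1)) - 1), hF, mul_assoc] at hc
    change _ = _ * (_ * prB (2 ^ k) (m - 1)) at hc
    have h1 : 31 ∣ (2 ^ k) ^ (m * (m - 1)) * (((2 ^ k) ^ m + 1) * prB (2 ^ k) (m - 1)) := by
      rw [← hc]
      exact Dvd.dvd.mul_left h31 _
    have hm5 : m < 6 := by
      by_contra hcon
      have h3 : 6 * 5 ≤ m * (m - 1) := Nat.mul_le_mul (by omega) (by omega)
      have h5 : k ≠ 0 := by rintro rfl; omega
      have h6 : 1 * 30 ≤ k * (m * (m - 1)) := Nat.mul_le_mul (by omega) h3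
      omega
    interval_cases m
    · omega
    · obtain rfl : k = 1 := by omega
      revert h1; decide

theorem Nat5.no_evenCl21 [Finite G] (H : Nat5 V F ψ) (h : EvenCl G 21) : False := by
  have h31 := H.dvd31
  obtain ⟨F, _, _, k, h | h | h | h | h⟩ := h
  · obtain ⟨n, hn, hF, hk, ⟨e⟩⟩ := h
    rw [Nat.card_congr e.toEquiv] at h31
    have hc := Cfsg.Agent.S0243.result (F := F) rfl n hn
    rw [Fin.prod_univ_eq_prod_range (fun i => Fintype.card F ^ n - Fintype.card F ^ i) n,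
      ← prod_list, hF] at hc
    change _ = glN n (2 ^ k) at hc
    have h1 : 31 ∣ glN n (2 ^ k) := by
      rw [← hc]
      exact Dvd.dvd.mul_left (Dvd.dvd.mul_left h31 _) _
    have hn7 : n ≤ 7 := by
      by_contra hcon
      have h3 : 8 * 7 ≤ n * (n - 1) := Nat.mul_le_mul (by omega) (by omega)
      have h4 : 28 ≤ n * (n - 1) / 2 := by omega
      have h5 : k ≠ 0 := by rintro rfl; omega
      have h6 : 1 * 28 ≤ k * (n * (n - 1) / 2) := Nat.mul_le_mul (by omega) h4
      omega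
    interval_cases n
    · obtain rfl : k = 21 := by omega
      revert h1; decide
    · obtain rfl : k = 7 := by omega
      revert h1; decide
    · omega
    · omega
    · omega
    · obtain rfl : k = 1 := by omega
      have := charTwo one_ne_zero hF
      exact H.no_psl 3 4 (by rw [hF]; norm_num) e
  · obtain ⟨m, hm, hF, hk, -⟩ := h
    have hm5 : m < 5 := by
      by_contra hcon
      have h3 : 5 * 5 ≤ m * m := Nat.mul_le_mul (by omega) (by omega)
      have h5 : k ≠ 0 := by rintro rfl; omega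
      have h6 : 1 * 25 ≤ k * m ^ 2 := Nat.mul_le_mul (by omega) (by rw [pow_two]; exact h3)
      omega
    interval_cases m <;> omega
  · obtain ⟨n, hn, hF, hk, ⟨e⟩⟩ := h
    rw [Nat.card_congr e.toEquiv] at h31
    have hc := Cfsg.Agent.S0280.result hF n (by omega)
    rw [← prod_list] at hc
    have h1 : 31 ∣ (2 ^ k) ^ (n * (n - 1) / 2) * (List.map (fun i =>
        if Even i then (2 ^ k) ^ (i + 1) + 1 else (2 ^ k) ^ (i + 1) - 1) (List.range n)).prod := by
      rw [← hc]
      exact Dvd.dvd.mul_left (Dvd.dvd.mul_left h31 _) _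
    have hn7 : n ≤ 7 := by
      by_contra hcon
      have h3 : 8 * 7 ≤ n * (n - 1) := Nat.mul_le_mul (by omega) (by omega)
      have h4 : 28 ≤ n * (n - 1) / 2 := by omega
      have h5 : k ≠ 0 := by rintro rfl; omega
      have h6 : 1 * 28 ≤ k * (n * (n - 1) / 2) := Nat.mul_le_mul (by omega) h4
      omega
    interval_cases n
    · obtain rfl : k = 7 := by omega
      revert h1; decide
    · omega
    · omega
    · omega
    · obtain rfl : k = 1 := by omega
      revert h1; decide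
  · obtain ⟨m, hm, hF, hk, -⟩ := h
    have hm5 : m < 6 := by
      by_contra hcon
      have h3 : 6 * 5 ≤ m * (m - 1) := Nat.mul_le_mul (by omega) (by omega)
      have h5 : k ≠ 0 := by rintro rfl; omega
      have h6 : 1 * 30 ≤ k * (m * (m - 1)) := Nat.mul_le_mul (by omega) h3
      omega
    interval_cases m <;> omega
  · obtain ⟨m, s, t, hm, hF, hk, -⟩ := h
    have hm5 : m < 6 := by
      by_contra hcon
      have h3 : 6 * 5 ≤ m * (m - 1) := Nat.mul_le_mul (by omega) (by omega)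
      have h5 : k ≠ 0 := by rintro rfl; omega
      have h6 : 1 * 30 ≤ k * (m * (m - 1)) := Nat.mul_le_mul (by omega) h3
      omega
    interval_cases m <;> omega

theorem spor20 : ∀ x ∈ spor, 2 ^ 20 ∣ x.2 → ¬ 2 ^ 21 ∣ x.2 → False := by decide

theorem spor21 : ∀ x ∈ spor, 2 ^ 21 ∣ x.2 → ¬ 2 ^ 22 ∣ x.2 → 31 ∣ x.2 → x.1 = .j4 := by decide

theorem noEx20 : NoEx 20 := ⟨by norm_num, by norm_num, by norm_num, by norm_num⟩

theorem noEx21 : NoEx 21 := ⟨by norm_num, by norm_num, by norm_num, by norm_num⟩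

/-- The groups. -/
theorem Nat5.final [Finite G] (H : Nat5 V F ψ) (hirr : Irr V) (hna : ¬ ∀ a b : G, Commute a b)
    (T : OrderTable.{u}) (hG : IsKnownSimple' G) :
    (∃ (F : Type) (_ : Field F) (_ : Fintype F), Fintype.card F = 2 ∧
      Nonempty (G ≃* POmega F (quadFormPlus 5 F))) ∨ Spor.IsoJ4 G := by
  by_cases h21 : 2 ^ 21 ∣ Nat.card G
  · right
    rcases cases0 T hG hna noEx21 h21 H.not22 with
      ⟨n, hn, ⟨e⟩⟩ | h | ⟨d, hd, h⟩ | h | ⟨x, hx, -, hr, hc⟩
    · exact (H.no_alt hn e).elim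
    · exact (H.no_oddCl hirr h).elim
    · exact (H.no_oddEx hd h).elim
    · exact (H.no_evenCl21 h).elim
    · have h1 := spor21 x hx (hc ▸ h21) (hc ▸ H.not22) (hc ▸ H.dvd31)
      rw [h1] at hr
      exact hr
  · left
    rcases cases0 T hG hna noEx20 H.dvd20 h21 with
      ⟨n, hn, ⟨e⟩⟩ | h | ⟨d, hd, h⟩ | h | ⟨x, hx, -, hr, hc⟩
    · exact (H.no_alt hn e).elim
    · exact (H.no_oddCl hirr h).elim
    · exact (H.no_oddEx hd h).elim
    · exact H.evenCl20 h
    · exact (spor20 x hx (hc ▸ H.dvd20) (hc ▸ h21)).elim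

end Cfsg.Agent.H338.L5
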