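import Cfsg.Agent.H338.L5Dat

/-!
# Normal elementary abelian subgroups (helper338)
-/

set_option autoImplicit false

namespace Cfsg.Agent.H338.L5

open Matrix

/-- The last column group. -/
def Mv (v : Fin 3 → ZMod 2) : M4 := UTm 0 0 (v 0) 0 (v 1) (v 2)

theorem ff4 : ∀ a b c d e f : ZMod 2, ¬ (a = 0 ∧ b = 0 ∧ d = 0) →
    ∃ v v' : Fin 3 → ZMod 2, v' ≠ 0 ∧ Mv v * UTm a b c d e f * Mv v = Mv v' * UTm a b c d e f := by
  decide +kernel

theorem ff4' : ∀ a b c d e f : ZMod 2,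
    (∀ v : Fin 3 → ZMod 2, UTm a b c d e f * Mv v = Mv v * UTm a b c d e f) →
      a = 0 ∧ b = 0 ∧ d = 0 := by
  decide +kernel

theorem ff2 : ∀ (v : Fin 3 → ZMod 2) (a b c d e f : ZMod 2),
    Mv v * ALm a b c d e f * (Mv v)ᵀ = ALm a b c d e f →
      v = 0 ∨ ![c, e, f] = 0 ∨ ![c, e, f] = v := by
  decide +kernel

theorem ff5 : ∀ a b c d e f : ZMod 2,
    (∀ g h k : ZMod 2, UTm a b c d e f * ALm g h 0 k 0 0 * (UTm a b c d e f)ᵀ = ALm g h 0 k 0 0) →
      a = 0 ∧ b = 0 ∧ d = 0 := by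
  decide +kernel

theorem ff6 : ∀ b c e f b' c' e' f' : ZMod 2,
    UTm 1 b c 0 e f * UTm 0 b' c' 1 e' f' ≠ UTm 0 b' c' 1 e' f' * UTm 1 b c 0 e f := by
  decide +kernel

theorem ut_mul (a b c d e f a' b' c' d' e' f' : ZMod 2) :
    UTm a b c d e f * UTm a' b' c' d' e' f' =
      UTm (a + a') (b + b' + a * d') (c + c' + a * e' + b * f') (d + d') (e + e' + d * f')
        (f + f') := by
  ext i j
  fin_cases i <;> fin_cases j <;>
    simp [UTm, Matrix.mul_apply, Fin.sum_univ_four] <;> ring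

theorem UTm_01 (a b c d e f : ZMod 2) : UTm a b c d e f 0 1 = a := rfl
theorem UTm_02 (a b c d e f : ZMod 2) : UTm a b c d e f 0 2 = b := rfl
theorem UTm_03 (a b c d e f : ZMod 2) : UTm a b c d e f 0 3 = c := rfl
theorem UTm_12 (a b c d e f : ZMod 2) : UTm a b c d e f 1 2 = d := rfl
theorem UTm_13 (a b c d e f : ZMod 2) : UTm a b c d e f 1 3 = e := rfl
theorem UTm_23 (a b c d e f : ZMod 2) : UTm a b c d e f 2 3 = f := rfl
theorem UTm_one : UTm 0 0 0 0 0 0 = 1 := by decide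
theorem UTm_inj : ∀ a b c d e f, UTm a b c d e f = 1 →
    a = 0 ∧ b = 0 ∧ c = 0 ∧ d = 0 ∧ e = 0 ∧ f = 0 := by decide +kernel

theorem ALm_add (a b c d e f a' b' c' d' e' f' : ZMod 2) :
    ALm a b c d e f + ALm a' b' c' d' e' f' =
      ALm (a + a') (b + b') (c + c') (d + d') (e + e') (f + f') := by
  ext i j
  fin_cases i <;> fin_cases j <;> simp [ALm]

end Cfsg.Agent.H338.L5
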