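import Cfsg.Agent.H338.AltDeg
import Cfsg.Agent.LieClassical.SLGen

/-!
# Generators of `SL(5,2)` (helper338)
-/

set_option autoImplicit false

namespace Cfsg.Agent.H338.L5

open Matrix

abbrev X := Matrix.SpecialLinearGroup (Fin 5) (ZMod 2)

theorem det_one {M M' : Matrix (Fin 5) (Fin 5) (ZMod 2)} (h : M * M' = 1) : M.det = 1 := by
  have h1 : M.det * M'.det = 1 := by rw [← Matrix.det_mul, h, Matrix.det_one]
  have h2 : ∀ a b : ZMod 2, a * b = 1 → a = 1 := by decide
  exact h2 _ _ h1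

/-- Permutation matrices. -/
def P : Equiv.Perm (Fin 5) →* X where
  toFun s := ⟨AltDeg.permHom 5 (ZMod 2) s, det_one (M' := AltDeg.permHom 5 (ZMod 2) s⁻¹) (by
    rw [← map_mul, mul_inv_cancel, map_one])⟩
  map_one' := Subtype.ext (map_one _)
  map_mul' a b := Subtype.ext (map_mul _ a b)

theorem P_apply (s : Equiv.Perm (Fin 5)) (i j : Fin 5) :
    (P s : Matrix (Fin 5) (Fin 5) (ZMod 2)) i j = if i = s j then 1 else 0 := rfl

/-- Transvections. -/
def T {i j : Fin 5} (h : i ≠ j) : X := SpecialLinearGroup.transvection h 1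

theorem T_val {i j : Fin 5} (h : i ≠ j) : (T h : Matrix (Fin 5) (Fin 5) (ZMod 2)) =
    1 + Matrix.single i j 1 := rfl

theorem P_mul_val (s : Equiv.Perm (Fin 5)) (M : Matrix (Fin 5) (Fin 5) (ZMod 2)) (a b : Fin 5) :
    ((P s : Matrix (Fin 5) (Fin 5) (ZMod 2)) * M) a b = M (s⁻¹ a) b := by
  rw [Matrix.mul_apply, Finset.sum_eq_single (s⁻¹ a)]
  · rw [P_apply, if_pos (by simp), one_mul]
  · intro k _ hk
    rw [P_apply, if_neg, zero_mul]
    rintro rfl
    exact hk (by simp)
  · intro h; exact absurd (Finset.mem_univ _) h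

theorem mul_P_val (s : Equiv.Perm (Fin 5)) (M : Matrix (Fin 5) (Fin 5) (ZMod 2)) (a b : Fin 5) :
    (M * (P s : Matrix (Fin 5) (Fin 5) (ZMod 2))) a b = M a (s b) := by
  rw [Matrix.mul_apply, Finset.sum_eq_single (s b)]
  · rw [P_apply, if_pos rfl, mul_one]
  · intro k _ hk
    rw [P_apply, if_neg hk, mul_zero]
  · intro h; exact absurd (Finset.mem_univ _) h

theorem P_conj_T (s : Equiv.Perm (Fin 5)) {i j : Fin 5} (h : i ≠ j) :
    P s * T h = T (s.injective.ne h) * P s := by
  apply Subtype.ext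
  ext a b
  show ((P s : Matrix (Fin 5) (Fin 5) (ZMod 2)) * (T h : Matrix (Fin 5) (Fin 5) (ZMod 2)) :
      Matrix (Fin 5) (Fin 5) (ZMod 2)) a b =
    ((T (s.injective.ne h) : Matrix (Fin 5) (Fin 5) (ZMod 2)) *
      (P s : Matrix (Fin 5) (Fin 5) (ZMod 2)) : Matrix (Fin 5) (Fin 5) (ZMod 2)) a b
  rw [P_mul_val, mul_P_val, T_val, T_val, Matrix.add_apply, Matrix.add_apply, Matrix.one_apply,
    Matrix.one_apply, Matrix.single_apply, Matrix.single_apply]
  have e1 : (s⁻¹ a = b) ↔ (a = s b) := Equiv.Perm.inv_eq_iff_eq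
  have e2 : (i = s⁻¹ a) ↔ (s i = a) := by
    rw [Equiv.Perm.eq_inv_iff_eq]
  have e3 : (j = b) ↔ (s j = s b) := s.injective.eq_iff.symm
  simp only [e1, e2, e3]

theorem closure_T : Subgroup.closure {g : X | ∃ (i j : Fin 5) (h : i ≠ j), g = T h} = ⊤ := by
  rw [eq_top_iff, ← LieClassical.SLGen.closure_transvections, Subgroup.closure_le]
  rintro _ ⟨i, j, h, c, rfl⟩
  have hc : c = 0 ∨ c = 1 := by revert c; decide
  rcases hc with rfl | rfl
  · have h1 : SpecialLinearGroup.transvection h (0 : ZMod 2) = 1 := by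
      apply Subtype.ext
      show 1 + Matrix.single i j (0 : ZMod 2) = 1
      simp
    rw [h1]
    exact Subgroup.one_mem _
  · exact Subgroup.subset_closure ⟨i, j, h, rfl⟩

def x (i : Fin 4) : X := T (i := i.castSucc) (j := i.succ) (by simp [Fin.ext_iff])
def y (i : Fin 4) : X := T (i := i.succ) (j := i.castSucc) (by simp [Fin.ext_iff])
def n (i : Fin 4) : X := P (Equiv.swap i.castSucc i.succ)

/-- The relations used for the operators `n i + x i * n i`. -/
structure Rel {Γ : Type*} [Group Γ] (x n : Fin 4 → Γ) : Prop where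
  xx : ∀ i, x i * x i = 1
  nn : ∀ i, n i * n i = 1
  xn : ∀ i, x i * n i * x i = n i * x i * n i
  fx : ∀ i j : Fin 4, (i : ℕ) + 1 < j ∨ (j : ℕ) + 1 < i → x i * x j = x j * x i
  fn : ∀ i j : Fin 4, (i : ℕ) + 1 < j ∨ (j : ℕ) + 1 < i → n i * n j = n j * n i
  fxn : ∀ i j : Fin 4, (i : ℕ) + 1 < j ∨ (j : ℕ) + 1 < i → x i * n j = n j * x i
  a1 : ∀ i j : Fin 4, (i : ℕ) + 1 = j ∨ (j : ℕ) + 1 = i → n i * x j * n i = x i * x j * x i * x j
  a2 : ∀ i j : Fin 4, (i : ℕ) + 1 = j ∨ (j : ℕ) + 1 = i →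
    n i * (x i * x j * x i) * n i = x i * x j * x i
  e1 : ∀ i j : Fin 4, (i : ℕ) + 1 = j ∨ (j : ℕ) + 1 = i → n i * n j * n i = n j * n i * n j
  e2 : ∀ i j : Fin 4, (i : ℕ) + 1 = j ∨ (j : ℕ) + 1 = i →
    x i * n i * n j * n i = n j * n i * x j * n j
  e3 : ∀ i j : Fin 4, (i : ℕ) + 1 = j ∨ (j : ℕ) + 1 = i →
    n i * x j * n j * n i = n j * x i * n i * n j
  e5 : ∀ i j : Fin 4, (i : ℕ) + 1 = j ∨ (j : ℕ) + 1 = i →
    x i * n i * x j * n j * n i = n j * x i * n i * x j * n j
  e6 : ∀ i j : Fin 4, (i : ℕ) + 1 = j ∨ (j : ℕ) + 1 = i →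
    x i * n i * n j * x i * n i = x j * n j * x i * n i * x j * n j

theorem rel_x : Rel x n where
  xx := by intro i; apply Subtype.ext; revert i; decide +kernel
  nn := by intro i; apply Subtype.ext; revert i; decide +kernel
  xn := by intro i; apply Subtype.ext; revert i; decide +kernel
  fx := by
    have : ∀ i j : Fin 4, (i : ℕ) + 1 < j ∨ (j : ℕ) + 1 < i →
      ((x i * x j : X) : Matrix (Fin 5) (Fin 5) (ZMod 2)) = ((x j * x i : X) : Matrix _ _ _) := by
      decide +kernel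
    intro i j h; exact Subtype.ext (this i j h)
  fn := by
    have : ∀ i j : Fin 4, (i : ℕ) + 1 < j ∨ (j : ℕ) + 1 < i →
      ((n i * n j : X) : Matrix (Fin 5) (Fin 5) (ZMod 2)) = ((n j * n i : X) : Matrix _ _ _) := by
      decide +kernel
    intro i j h; exact Subtype.ext (this i j h)
  fxn := by
    have : ∀ i j : Fin 4, (i : ℕ) + 1 < j ∨ (j : ℕ) + 1 < i →
      ((x i * n j : X) : Matrix (Fin 5) (Fin 5) (ZMod 2)) = ((n j * x i : X) : Matrix _ _ _) := by
      decide +kernel
    intro i j h; exact Subtype.ext (this i j h)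
  a1 := by
    have : ∀ i j : Fin 4, (i : ℕ) + 1 = j ∨ (j : ℕ) + 1 = i →
      ((n i * x j * n i : X) : Matrix (Fin 5) (Fin 5) (ZMod 2)) =
        ((x i * x j * x i * x j : X) : Matrix _ _ _) := by
      decide +kernel
    intro i j h; exact Subtype.ext (this i j h)
  a2 := by
    have : ∀ i j : Fin 4, (i : ℕ) + 1 = j ∨ (j : ℕ) + 1 = i →
      ((n i * (x i * x j * x i) * n i : X) : Matrix (Fin 5) (Fin 5) (ZMod 2)) =
        ((x i * x j * x i : X) : Matrix _ _ _) := by
      decide +kernel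
    intro i j h; exact Subtype.ext (this i j h)
  e1 := by
    have : ∀ i j : Fin 4, (i : ℕ) + 1 = j ∨ (j : ℕ) + 1 = i →
      ((n i * n j * n i : X) : Matrix (Fin 5) (Fin 5) (ZMod 2)) =
        ((n j * n i * n j : X) : Matrix _ _ _) := by
      decide +kernel
    intro i j h; exact Subtype.ext (this i j h)
  e2 := by
    have : ∀ i j : Fin 4, (i : ℕ) + 1 = j ∨ (j : ℕ) + 1 = i →
      ((x i * n i * n j * n i : X) : Matrix (Fin 5) (Fin 5) (ZMod 2)) =
        ((n j * n i * x j * n j : X) : Matrix _ _ _) := by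
      decide +kernel
    intro i j h; exact Subtype.ext (this i j h)
  e3 := by
    have : ∀ i j : Fin 4, (i : ℕ) + 1 = j ∨ (j : ℕ) + 1 = i →
      ((n i * x j * n j * n i : X) : Matrix (Fin 5) (Fin 5) (ZMod 2)) =
        ((n j * x i * n i * n j : X) : Matrix _ _ _) := by
      decide +kernel
    intro i j h; exact Subtype.ext (this i j h)
  e5 := by
    have : ∀ i j : Fin 4, (i : ℕ) + 1 = j ∨ (j : ℕ) + 1 = i →
      ((x i * n i * x j * n j * n i : X) : Matrix (Fin 5) (Fin 5) (ZMod 2)) =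
        ((n j * x i * n i * x j * n j : X) : Matrix _ _ _) := by
      decide +kernel
    intro i j h; exact Subtype.ext (this i j h)
  e6 := by
    have : ∀ i j : Fin 4, (i : ℕ) + 1 = j ∨ (j : ℕ) + 1 = i →
      ((x i * n i * n j * x i * n i : X) : Matrix (Fin 5) (Fin 5) (ZMod 2)) =
        ((x j * n j * x i * n i * x j * n j : X) : Matrix _ _ _) := by
      decide +kernel
    intro i j h; exact Subtype.ext (this i j h)

theorem rel_y : Rel y n where
  xx := by intro i; apply Subtype.ext; revert i; decide +kernel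
  nn := by intro i; apply Subtype.ext; revert i; decide +kernel
  xn := by intro i; apply Subtype.ext; revert i; decide +kernel
  fx := by
    have : ∀ i j : Fin 4, (i : ℕ) + 1 < j ∨ (j : ℕ) + 1 < i →
      ((y i * y j : X) : Matrix (Fin 5) (Fin 5) (ZMod 2)) = ((y j * y i : X) : Matrix _ _ _) := by
      decide +kernel
    intro i j h; exact Subtype.ext (this i j h)
  fn := by
    have : ∀ i j : Fin 4, (i : ℕ) + 1 < j ∨ (j : ℕ) + 1 < i →
      ((n i * n j : X) : Matrix (Fin 5) (Fin 5) (ZMod 2)) = ((n j * n i : X) : Matrix _ _ _) := by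
      decide +kernel
    intro i j h; exact Subtype.ext (this i j h)
  fxn := by
    have : ∀ i j : Fin 4, (i : ℕ) + 1 < j ∨ (j : ℕ) + 1 < i →
      ((y i * n j : X) : Matrix (Fin 5) (Fin 5) (ZMod 2)) = ((n j * y i : X) : Matrix _ _ _) := by
      decide +kernel
    intro i j h; exact Subtype.ext (this i j h)
  a1 := by
    have : ∀ i j : Fin 4, (i : ℕ) + 1 = j ∨ (j : ℕ) + 1 = i →
      ((n i * y j * n i : X) : Matrix (Fin 5) (Fin 5) (ZMod 2)) =
        ((y i * y j * y i * y j : X) : Matrix _ _ _) := by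
      decide +kernel
    intro i j h; exact Subtype.ext (this i j h)
  a2 := by
    have : ∀ i j : Fin 4, (i : ℕ) + 1 = j ∨ (j : ℕ) + 1 = i →
      ((n i * (y i * y j * y i) * n i : X) : Matrix (Fin 5) (Fin 5) (ZMod 2)) =
        ((y i * y j * y i : X) : Matrix _ _ _) := by
      decide +kernel
    intro i j h; exact Subtype.ext (this i j h)
  e1 := by
    have : ∀ i j : Fin 4, (i : ℕ) + 1 = j ∨ (j : ℕ) + 1 = i →
      ((n i * n j * n i : X) : Matrix (Fin 5) (Fin 5) (ZMod 2)) =
        ((n j * n i * n j : X) : Matrix _ _ _) := by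
      decide +kernel
    intro i j h; exact Subtype.ext (this i j h)
  e2 := by
    have : ∀ i j : Fin 4, (i : ℕ) + 1 = j ∨ (j : ℕ) + 1 = i →
      ((y i * n i * n j * n i : X) : Matrix (Fin 5) (Fin 5) (ZMod 2)) =
        ((n j * n i * y j * n j : X) : Matrix _ _ _) := by
      decide +kernel
    intro i j h; exact Subtype.ext (this i j h)
  e3 := by
    have : ∀ i j : Fin 4, (i : ℕ) + 1 = j ∨ (j : ℕ) + 1 = i →
      ((n i * y j * n j * n i : X) : Matrix (Fin 5) (Fin 5) (ZMod 2)) =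
        ((n j * y i * n i * n j : X) : Matrix _ _ _) := by
      decide +kernel
    intro i j h; exact Subtype.ext (this i j h)
  e5 := by
    have : ∀ i j : Fin 4, (i : ℕ) + 1 = j ∨ (j : ℕ) + 1 = i →
      ((y i * n i * y j * n j * n i : X) : Matrix (Fin 5) (Fin 5) (ZMod 2)) =
        ((n j * y i * n i * y j * n j : X) : Matrix _ _ _) := by
      decide +kernel
    intro i j h; exact Subtype.ext (this i j h)
  e6 := by
    have : ∀ i j : Fin 4, (i : ℕ) + 1 = j ∨ (j : ℕ) + 1 = i →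
      ((y i * n i * n j * y i * n i : X) : Matrix (Fin 5) (Fin 5) (ZMod 2)) =
        ((y j * n j * y i * n i * y j * n j : X) : Matrix _ _ _) := by
      decide +kernel
    intro i j h; exact Subtype.ext (this i j h)

/-- the twist -/
theorem y_eq (i : Fin 4) : y i = x i * n i * x i := by
  apply Subtype.ext; revert i; decide +kernel

end Cfsg.Agent.H338.L5
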