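import Cfsg.Agent.H338.M24Duad
import Cfsg.Agent.H338.Dual2

/-!
# Modules of order `2^11` for `M24`: no quadratic offenders (helper338)
-/

set_option autoImplicit false
open scoped Pointwise
open Cfsg MulAction

namespace Cfsg.Agent.H338.M24Orb

open Cfsg.Agent.SporadicStructure.M24IndexAbs Cfsg.Agent.SporadicStructure.M24IndexMain
open Cfsg.Agent.SporadicStructure.M23Index253 (exists_map card_golayPt)
open Cfsg.Agent.J4Type.DuadStab Cfsg.Agent.Schreier.CocodeSmall Cfsg.Agent.H338.Dual2

section small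

variable {A : Type*} [CommGroup A] {e : GolayPt → A}

theorem card_range_kap [Finite A] (P : Pres e) (hA : Nat.card A = 2 ^ 11) {c : M24}
    (hc : c * c = 1) (hc1 : c ≠ 1) : 16 ≤ Nat.card (kap P c).range := by
  have h1 := card_ker_kap_le P hA hc hc1
  have h2 := Subgroup.card_mul_index (kap P c).ker
  rw [Subgroup.index_ker, hA] at h2
  by_contra h
  push Not at h
  have h3 : Nat.card (kap P c).ker * Nat.card (kap P c).range ≤ 2 ^ 7 * 15 :=
    Nat.mul_le_mul h1 (by omega)
  omega

/-- The dual estimate. -/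
theorem small' [Finite A] (P : Pres e) (hA : Nat.card A = 2 ^ 11) (B : Subgroup M24)
    (hB : ∀ b ∈ B, b * b = 1) (hne : B ≠ ⊥) (U : Subgroup A)
    (h1 : ∀ b ∈ B, ∀ a ∈ U, actE P b a = a) (h2 : ∀ b ∈ B, ∀ a : A, actE P b a * a ∈ U) :
    Nat.card B < Nat.card U := by
  classical
  by_contra hge
  rw [not_lt] at hge
  have hUr : ∀ c ∈ B, (kap P c).range ≤ U := by
    rintro c hc _ ⟨a, rfl⟩
    exact h2 c hc a
  have hU16 : 16 ≤ Nat.card U := by
    obtain ⟨c, hc1⟩ := Subgroup.ne_bot_iff_exists_ne_one.1 hne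
    exact (card_range_kap P hA (hB c c.2) (fun h => hc1 (Subtype.ext h))).trans
      (Subgroup.card_le_of_le (hUr c c.2))
  by_cases hI : ∃ c ∈ B, c ≠ 1 ∧ ∃ q : GolayPt, (c : Equiv.Perm GolayPt) q = q
  · -- elements with fixed points
    have hpres : ∀ c ∈ B, ∀ q : GolayPt, (c : Equiv.Perm GolayPt) q = q → ∀ b ∈ B, ∀ p,
        (c : Equiv.Perm GolayPt) p ≠ p →
        (b : Equiv.Perm GolayPt) p = p ∨ (b : Equiv.Perm GolayPt) p = (c : Equiv.Perm GolayPt) p := by
      intro c hc q hq b hb p hp
      have h3 : e p * e ((c : Equiv.Perm GolayPt) p) ∈ U := by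
        have h4 := h2 c hc (e p * e q)
        have h5 := kap_pair P c p q
        rw [kap_apply] at h5
        rw [h5, hq, P.he.sq, mul_one] at h4
        exact h4
      have h4 := h1 b hb _ h3
      rw [actE_pair P b (Ne.symm hp)] at h4
      rcases pair_eq P ((b : Equiv.Perm GolayPt).injective.ne (Ne.symm hp)) (Ne.symm hp) h4 with
        ⟨h5, -⟩ | ⟨h5, -⟩
      · exact Or.inl h5
      · exact Or.inr h5
    obtain ⟨c, hcB, hc1, q, hq⟩ := hI
    have hB16 := card_le_sixteen B hB hcB hc1 hq (hpres c hcB q hq)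
    have hBc : Nat.card B = 16 := by omega
    obtain ⟨p, hp⟩ : ∃ p, (c : Equiv.Perm GolayPt) p ≠ p := by
      by_contra hno
      push Not at hno
      exact hc1 (Subtype.ext (Equiv.ext hno))
    -- the stabiliser of `p` in `B` has order at least 8
    let Bp : Subgroup M24 := B ⊓ stabilizer M24 p
    have hBp : 8 ≤ Nat.card Bp := by
      have h3 : ∀ b ∈ B, b ∉ stabilizer M24 p → c * b ∈ Bp := by
        intro b hb hbp
        refine ⟨B.mul_mem hcB hb, ?_⟩
        have h4 : (b : Equiv.Perm GolayPt) p = (c : Equiv.Perm GolayPt) p :=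
          (hpres c hcB q hq b hb p hp).resolve_left hbp
        show (c : Equiv.Perm GolayPt) ((b : Equiv.Perm GolayPt) p) = p
        rw [h4]
        have h5 : ((c * c : M24) : Equiv.Perm GolayPt) p = p := by rw [hB c hcB]; rfl
        exact h5
      have h4 : Nat.card B ≤ Nat.card (Bp × Bool) := by
        let φ : B → Bp × Bool := fun b =>
          if h : (b : M24) ∈ stabilizer M24 p then (⟨b, b.2, h⟩, true)
          else (⟨c * b, h3 b b.2 h⟩, false)
        have e1 : ∀ (b : B) (h : (b : M24) ∈ stabilizer M24 p), φ b = (⟨b, b.2, h⟩, true) :=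
          fun b h => dif_pos h
        have e2 : ∀ (b : B) (h : ¬ (b : M24) ∈ stabilizer M24 p),
            φ b = (⟨c * b, h3 b b.2 h⟩, false) := fun b h => dif_neg h
        apply Nat.card_le_card_of_injective φ
        intro b b' hbb
        by_cases h5 : (b : M24) ∈ stabilizer M24 p <;> by_cases h6 : (b' : M24) ∈ stabilizer M24 p
        · rw [e1 b h5, e1 b' h6, Prod.mk.injEq] at hbb
          have h7 : (b : M24) = (b' : M24) := congrArg (fun z : Bp => (z : M24)) hbb.1
          exact Subtype.ext h7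
        · rw [e1 b h5, e2 b' h6, Prod.mk.injEq] at hbb
          exact absurd hbb.2 (by decide)
        · rw [e2 b h5, e1 b' h6, Prod.mk.injEq] at hbb
          exact absurd hbb.2 (by decide)
        · rw [e2 b h5, e2 b' h6, Prod.mk.injEq] at hbb
          have h7 : c * (b : M24) = c * (b' : M24) := congrArg (fun z : Bp => (z : M24)) hbb.1
          exact Subtype.ext (mul_left_cancel h7)
      rw [Nat.card_prod, hBc, Nat.card_eq_fintype_card (α := Bool), Fintype.card_bool] at h4
      omega
    -- two different non-trivial elements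
    have hex : ∃ b ∈ Bp, ∃ b' ∈ Bp, b ≠ 1 ∧ b' ≠ 1 ∧ b ≠ b' := by
      by_contra hno
      push Not at hno
      have h3 : Nat.card Bp ≤ 2 := by
        by_contra h4
        push Not at h4
        have h5 : 2 < (Set.univ : Set Bp).ncard := by rw [Set.ncard_univ]; exact h4
        obtain ⟨x, -, y, -, z, -, hxy, hxz, hyz⟩ := (Set.two_lt_ncard (Set.toFinite _)).1 h5
        have key : ∀ x y : Bp, x ≠ 1 → y ≠ 1 → x = y := by
          intro x y hx hy
          exact Subtype.ext (hno x x.2 y y.2 (fun h => hx (Subtype.ext h))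
            (fun h => hy (Subtype.ext h)))
        by_cases hx : x = 1
        · exact hyz (key y z (fun h => hxy (hx.trans h.symm)) (fun h => hxz (hx.trans h.symm)))
        · by_cases hy : y = 1
          · exact hxz (key x z hx (fun h => hyz (hy.trans h.symm)))
          · exact hxy (key x y hx hy)
      omega
    obtain ⟨b, hb, b', hb', hb1, hb1', hbb⟩ := hex
    have hd1 : b * b' ≠ 1 := by
      intro h
      apply hbb
      have h3 := hB b' hb'.1
      exact mul_right_cancel (h.trans h3.symm)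
    have hfp : (b : Equiv.Perm GolayPt) p = p := hb.2
    have hfp' : (b' : Equiv.Perm GolayPt) p = p := hb'.2
    have hfd : ((b * b' : M24) : Equiv.Perm GolayPt) p = p := by
      show (b : Equiv.Perm GolayPt) ((b' : Equiv.Perm GolayPt) p) = p
      rw [hfp', hfp]
    have hinv : ∀ d ∈ B, (d : Equiv.Perm GolayPt) * (d : Equiv.Perm GolayPt) = 1 := fun d hd =>
      congrArg Subtype.val (hB d hd)
    have c1 := Cfsg.Agent.J4Type.FusionM22.card_fix b.2 (hinv b hb.1)
      (fun h => hb1 (Subtype.ext h)) hfp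
    have c2 := Cfsg.Agent.J4Type.FusionM22.card_fix b'.2 (hinv b' hb'.1)
      (fun h => hb1' (Subtype.ext h)) hfp'
    have c3 := Cfsg.Agent.J4Type.FusionM22.card_fix (b * b').2
      (hinv (b * b') (B.mul_mem hb.1 hb'.1)) (fun h => hd1 (Subtype.ext h)) hfd
    set Fb := Finset.univ.filter fun x : GolayPt => (b : Equiv.Perm GolayPt) x = x with hFb
    set Fb' := Finset.univ.filter fun x : GolayPt => (b' : Equiv.Perm GolayPt) x = x with hFb'
    set Fd := Finset.univ.filter fun x : GolayPt => ((b * b' : M24) : Equiv.Perm GolayPt) x = x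
      with hFd
    have hsub : (Fb ∩ Fb') ∪ (Fb ∪ Fb')ᶜ ⊆ Fd := by
      intro x hx
      rw [Finset.mem_union, Finset.mem_inter, Finset.mem_compl, Finset.mem_union, not_or] at hx
      refine Finset.mem_filter.2 ⟨Finset.mem_univ _, ?_⟩
      show (b : Equiv.Perm GolayPt) ((b' : Equiv.Perm GolayPt) x) = x
      rcases hx with ⟨h3, h4⟩ | ⟨h3, h4⟩
      · rw [(Finset.mem_filter.1 h4).2, (Finset.mem_filter.1 h3).2]
      · have h5 : (b : Equiv.Perm GolayPt) x ≠ x := fun h => h3 (by rw [hFb]; simp [h])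
        have h6 : (b' : Equiv.Perm GolayPt) x ≠ x := fun h => h4 (by rw [hFb']; simp [h])
        rw [(hpres b hb.1 p hfp b' hb'.1 x h5).resolve_left h6]
        have h7 := congrFun (congrArg DFunLike.coe (hinv b hb.1)) x
        exact h7
    have h3 := Finset.card_le_card hsub
    have hdis : Disjoint (Fb ∩ Fb') (Fb ∪ Fb')ᶜ := by
      rw [Finset.disjoint_left]
      intro x hx hx'
      rw [Finset.mem_compl] at hx'
      exact hx' (Finset.mem_union_left _ (Finset.mem_inter.1 hx).1)
    rw [Finset.card_union_of_disjoint hdis, Finset.card_compl, card24] at h3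
    have h4 := Finset.card_union_add_card_inter Fb Fb'
    have h5 : p ∈ Fb ∩ Fb' := by
      rw [Finset.mem_inter]
      exact ⟨Finset.mem_filter.2 ⟨Finset.mem_univ _, hfp⟩,
        Finset.mem_filter.2 ⟨Finset.mem_univ _, hfp'⟩⟩
    have h6 : 0 < (Fb ∩ Fb').card := Finset.card_pos.2 ⟨p, h5⟩
    have h7 := Finset.card_le_univ (Fb ∪ Fb')
    rw [card24] at h7
    have c1' : Fb.card = 8 := c1
    have c2' : Fb'.card = 8 := c2
    have c3' : Fd.card = 8 := c3
    omega
  · push Not at hI
    -- `B` acts semiregularly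
    have hfree : ∀ p : GolayPt, Function.Injective (fun b : B => (b : M24) • p) := by
      intro p b b' hbb
      by_contra hne'
      have h3 : (b : M24)⁻¹ * (b' : M24) ≠ 1 := fun h => hne' (Subtype.ext (inv_mul_eq_one.1 h))
      apply hI _ (B.mul_mem (B.inv_mem b.2) b'.2) h3 p
      show ((b : M24)⁻¹ * (b' : M24)) • p = p
      rw [mul_smul, inv_smul_eq_iff]
      exact hbb.symm
    have hfinB : Finite B := inferInstance
    have hpg : IsPGroup 2 B := by
      intro b
      refine ⟨1, ?_⟩
      rw [pow_one, pow_two]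
      exact Subtype.ext (hB b b.2)
    have : Fact (Nat.Prime 2) := ⟨Nat.prime_two⟩
    obtain ⟨n, hn⟩ := IsPGroup.iff_card.1 hpg
    have h24 : Nat.card GolayPt = 24 := by
      rw [Nat.card_eq_fintype_card, card24]
    have hle := Nat.card_le_card_of_injective _ (hfree none)
    rw [h24] at hle
    have hn4 : Nat.card B = 16 := by
      rw [hn] at hle hge ⊢
      have h4 : n = 4 := by
        have h5 : n < 5 := by
          by_contra h
          have : 2 ^ 5 ≤ 2 ^ n := Nat.pow_le_pow_right (by norm_num) (by omega)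
          omega
        have h6 : 4 ≤ n := by
          by_contra h
          have : 2 ^ n ≤ 2 ^ 3 := Nat.pow_le_pow_right (by norm_num) (by omega)
          omega
        omega
      rw [h4]; norm_num
    have : Fintype B := Fintype.ofFinite B
    let I : GolayPt → Finset GolayPt := fun p => Finset.univ.image fun b : B => (b : M24) • p
    have hIc : ∀ p, (I p).card = 16 := by
      intro p
      rw [Finset.card_image_of_injective _ (hfree p), Finset.card_univ,
        ← Nat.card_eq_fintype_card, hn4]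
    obtain ⟨q, -, hq⟩ := exists_not_mem (n := 16) (Finset.univ : Finset GolayPt) (I none)
      (by rw [Finset.card_univ, card24]; omega) (le_of_eq (hIc none))
    have hdisj : Disjoint (I none) (I q) := by
      rw [Finset.disjoint_left]
      intro x hx hx'
      obtain ⟨b, -, hb⟩ := Finset.mem_image.1 hx
      obtain ⟨b', -, hb'⟩ := Finset.mem_image.1 hx'
      apply hq
      refine Finset.mem_image.2 ⟨b'⁻¹ * b, Finset.mem_univ _, ?_⟩
      show ((b' : M24)⁻¹ * (b : M24)) • (none : GolayPt) = q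
      rw [mul_smul, inv_smul_eq_iff]
      exact hb.trans hb'.symm
    have h3 := Finset.card_le_univ (I none ∪ I q)
    rw [Finset.card_union_of_disjoint hdisj, hIc, hIc, card24] at h3
    omega

end small

variable {A : Type*} [CommGroup A] [Finite A] [MulDistribMulAction M24 A]

theorem small276' (M : Mod24 A) {v : A} (hv : v ≠ 1) (fv : x11 • v = v)
    (idx : (stabilizer M24 v).index = 276) (B : Subgroup M24)
    (hB : ∀ b ∈ B, b * b = 1) (hne : B ≠ ⊥) (U : Subgroup A)
    (h1 : ∀ b ∈ B, ∀ a ∈ U, b • a = a) (h2 : ∀ b ∈ B, ∀ a : A, (b • a) * a ∈ U) :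
    Nat.card B < Nat.card U := by
  obtain ⟨D, H⟩ := exists_duad M hv fv idx
  apply small' H.pres M.card B hB hne U
  · intro b hb a ha
    rw [H.actE_eq]
    exact h1 b hb a ha
  · intro b hb a
    rw [H.actE_eq]
    exact h2 b hb a

/-! ### The case 1288 -/

theorem Mod24.exists_fixed (M : Mod24 A) : ∃ v : A, v ≠ 1 ∧ x11 • v = v := by
  obtain ⟨v, h1, h2, -⟩ := M.fix11 x11_ne x11_pow
  exact ⟨v, h1, h2⟩

theorem Mod24.orbits1288 (M : Mod24 A) {v : A} (hv : v ≠ 1) (fv : x11 • v = v)
    (idx : (stabilizer M24 v).index = 1288) :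
    ∃ w : A, w ≠ 1 ∧ w ∉ orbit M24 v ∧ (stabilizer M24 w).index = 759 ∧
      ∀ a : A, a = 1 ∨ a ∈ orbit M24 v ∨ a ∈ orbit M24 w := by
  classical
  have hidx : (orbit M24 v).ncard = 1288 := by rw [← idx, index_stabilizer]
  have h1v : (1 : A) ∉ orbit M24 v := fun ⟨k, hk⟩ => Mod24.smul_ne_one hv k hk
  obtain ⟨w, hw⟩ : ∃ w : A, w ∉ insert 1 (orbit M24 v) := by
    by_contra hno
    push Not at hno
    have h1 : insert 1 (orbit M24 v) = (Set.univ : Set A) := Set.eq_univ_of_forall hno
    have h2 := Set.ncard_insert_of_notMem h1v (Set.toFinite (orbit M24 v))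
    rw [h1, Set.ncard_univ, M.card, hidx] at h2
    norm_num at h2
  rw [Set.mem_insert_iff, not_or] at hw
  have h3 := M.orbit253 hv fv hw.1 hw.2
  have h4 := Cfsg.Agent.S1589.result.2.2.2 (stabilizer M24 w)
  have h5 := M.index_add_le hw.1 hv hw.2
  rw [idx] at h5
  have h6 : 0 < (stabilizer M24 w).index := Nat.pos_of_ne_zero Subgroup.index_ne_zero_of_finite
  have h1w : (1 : A) ∉ orbit M24 w := fun ⟨k, hk⟩ => Mod24.smul_ne_one hw.1 k hk
  have hdisj : Disjoint (orbit M24 w) (orbit M24 v) := by
    rw [Set.disjoint_left]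
    intro a ha ha'
    apply hw.2
    rw [← orbit_eq_iff.2 ha', orbit_eq_iff.2 ha]
    exact mem_orbit_self w
  have hcard : (insert 1 (orbit M24 w ∪ orbit M24 v)).ncard = (stabilizer M24 w).index + 1289 := by
    rw [Set.ncard_insert_of_notMem (by
      rintro (h | h)
      · exact h1w h
      · exact h1v h) (Set.toFinite _), Set.ncard_union_eq hdisj (Set.toFinite _) (Set.toFinite _),
      hidx, index_stabilizer]
  -- every element is covered
  have hall : ∀ a : A, a ∈ insert 1 (orbit M24 w ∪ orbit M24 v) := by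
    intro a
    by_contra ha
    rw [Set.mem_insert_iff, Set.mem_union, not_or, not_or] at ha
    obtain ⟨ha1, haw, hav⟩ := ha
    have h7 := M.orbit253 hv fv ha1 hav
    have h8 := Cfsg.Agent.S1589.result.2.2.2 (stabilizer M24 a)
    have h9 : 0 < (stabilizer M24 a).index := Nat.pos_of_ne_zero Subgroup.index_ne_zero_of_finite
    have hd2 : Disjoint (orbit M24 a) (insert 1 (orbit M24 w ∪ orbit M24 v)) := by
      rw [Set.disjoint_left]
      rintro b hb (rfl | hb' | hb')
      · obtain ⟨k, hk⟩ := hb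
        exact Mod24.smul_ne_one ha1 k hk
      · apply haw
        rw [← orbit_eq_iff.2 hb', orbit_eq_iff.2 hb]
        exact mem_orbit_self a
      · apply hav
        rw [← orbit_eq_iff.2 hb', orbit_eq_iff.2 hb]
        exact mem_orbit_self a
    have h10 := Set.ncard_le_ncard (Set.subset_univ (orbit M24 a ∪
      insert 1 (orbit M24 w ∪ orbit M24 v))) (Set.toFinite _)
    rw [Set.ncard_union_eq hd2 (Set.toFinite _) (Set.toFinite _), hcard, Set.ncard_univ, M.card,
      ← index_stabilizer] at h10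
    omega
  have hun : insert 1 (orbit M24 w ∪ orbit M24 v) = (Set.univ : Set A) :=
    Set.eq_univ_of_forall hall
  rw [hun, Set.ncard_univ, M.card] at hcard
  refine ⟨w, hw.1, hw.2, by omega, ?_⟩
  intro a
  rcases hall a with h | h | h
  · exact Or.inl h
  · exact Or.inr (Or.inr h)
  · exact Or.inr (Or.inl h)

theorem Mod24.dual (M : Mod24 A) : Mod24 (Dl A) where
  card := by rw [card_dual M.sq, M.card]
  sq := Dl.sq
  ntriv := by
    obtain ⟨g, a, h⟩ := M.ntriv
    have h1 : g • a * a ≠ 1 := by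
      intro h2
      apply h
      exact mul_right_cancel (h2.trans (M.sq a).symm)
    obtain ⟨χ, hχ⟩ := exists_sep M.sq h1
    refine ⟨g⁻¹, χ, fun h2 => hχ ?_⟩
    have h3 : (g⁻¹ • χ) a = χ a := by rw [h2]
    rw [dl_smul_apply, inv_inv] at h3
    rw [map_mul, h3, unit_sq]

/-- The arithmetic. -/
theorem arith (r s : ℤ) (h1 : 759 + 759 * r + 1288 * s = 0)
    (h2 : 759 * 759 + 759 * (r * r) + 1288 * (s * s) = 2048 * 759) : False := by
  -- `s = 33 t`, `r = -1 - 56 t`
  have h3 : 33 * (r + 1) = - (56 * s) := by omega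
  have h4 : (33 : ℤ) ∣ s := by omega
  obtain ⟨t, rfl⟩ := h4
  have h5 : r = -1 - 56 * t := by omega
  subst h5
  have h6 : 89 * (t * t) + 2 * t - 23 = 0 := by nlinarith
  have h7 : t ≤ 1 := by nlinarith
  have h8 : -1 ≤ t := by nlinarith
  interval_cases t <;> omega

theorem Mod24.not_both (M : Mod24 A) {v : A} (hv : v ≠ 1) (fv : x11 • v = v)
    (idx : (stabilizer M24 v).index = 1288) {χ : Dl A} (hχ : χ ≠ 1) (fχ : x11 • χ = χ)
    (idχ : (stabilizer M24 χ).index = 1288) : False := by
  classical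
  have : Fintype A := Fintype.ofFinite A
  have : Fintype (Dl A) := Fintype.ofFinite _
  obtain ⟨w, hw1, hwv, hwi, -⟩ := M.orbits1288 hv fv idx
  obtain ⟨ψ, hψ1, hψχ, hψi, hall⟩ := M.dual.orbits1288 hχ fχ idχ
  let O : Finset A := Finset.univ.filter fun a => a ∈ orbit M24 w
  have hmO : ∀ a, a ∈ O ↔ a ∈ orbit M24 w := fun a => by simp [O]
  have hOc : O.card = 759 := by
    rw [← hwi, index_stabilizer, ← Set.ncard_coe_finset]
    congr 1
    ext a
    simp [O]
  have hOi : ∀ g : M24, ∀ a ∈ O, g • a ∈ O := by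
    intro g a ha
    rw [hmO] at ha ⊢
    obtain ⟨k, hk⟩ := ha
    exact ⟨g * k, by
      show (g * k) • w = g • a
      have hk' : k • w = a := hk
      rw [mul_smul, hk']⟩
  have hO1 : (1 : A) ∉ O := by
    rw [hmO]
    exact fun ⟨k, hk⟩ => Mod24.smul_ne_one hw1 k hk
  -- constancy on orbits
  have hcst : ∀ θ : Dl A, ∀ η ∈ orbit M24 θ, F O η = F O θ := by
    rintro θ _ ⟨g, rfl⟩
    exact F_smul O hOi g θ
  have h1χ : (1 : Dl A) ∉ orbit M24 χ := fun ⟨k, hk⟩ => Mod24.smul_ne_one hχ k hk
  have h1ψ : (1 : Dl A) ∉ orbit M24 ψ := fun ⟨k, hk⟩ => Mod24.smul_ne_one hψ1 k hk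
  have hdisj : ∀ η, η ∈ orbit M24 ψ → η ∈ orbit M24 χ → False := by
    intro η h1 h2
    apply hψχ
    rw [← orbit_eq_iff.2 h2, orbit_eq_iff.2 h1]
    exact mem_orbit_self ψ
  -- splitting of sums
  have hsplit : ∀ f : ℤ → ℤ, ∑ η : Dl A, f (F O η) =
      f 759 + 759 * f (F O ψ) + 1288 * f (F O χ) := by
    intro f
    let X : Finset (Dl A) := Finset.univ.filter fun η => η ∈ orbit M24 ψ
    let Y : Finset (Dl A) := Finset.univ.filter fun η => η ∈ orbit M24 χ
    have hX : ∀ η, η ∈ X ↔ η ∈ orbit M24 ψ := fun η => by simp [X]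
    have hY : ∀ η, η ∈ Y ↔ η ∈ orbit M24 χ := fun η => by simp [Y]
    have hXc : X.card = 759 := by
      rw [← hψi, index_stabilizer, ← Set.ncard_coe_finset]
      congr 1
      ext a
      simp [X]
    have hYc : Y.card = 1288 := by
      rw [← idχ, index_stabilizer, ← Set.ncard_coe_finset]
      congr 1
      ext a
      simp [Y]
    have hU : (Finset.univ : Finset (Dl A)) = insert 1 (X ∪ Y) := by
      symm
      rw [Finset.eq_univ_iff_forall]
      intro η
      rw [Finset.mem_insert, Finset.mem_union, hX, hY]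
      rcases hall η with h | h | h
      · exact Or.inl h
      · exact Or.inr (Or.inr h)
      · exact Or.inr (Or.inl h)
    have hXY : Disjoint X Y := by
      rw [Finset.disjoint_left]
      intro η h1 h2
      exact hdisj η ((hX η).1 h1) ((hY η).1 h2)
    rw [hU, Finset.sum_insert (by
      rw [Finset.mem_union, hX, hY]
      rintro (h | h)
      · exact h1ψ h
      · exact h1χ h), Finset.sum_union hXY, F_one, hOc,
      Finset.sum_congr rfl (fun η hη => by rw [hcst ψ η ((hX η).1 hη)]),
      Finset.sum_congr (s₁ := Y) rfl (fun η hη => by rw [hcst χ η ((hY η).1 hη)]),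
      Finset.sum_const, Finset.sum_const, hXc, hYc]
    simp only [nsmul_eq_mul]
    push_cast
    ring
  have e1 := sum_F M.sq O hO1
  have e2 := sum_F_sq M.sq O
  have e3 := hsplit id
  have e4 := hsplit (fun x => x * x)
  simp only [id] at e3
  rw [e3] at e1
  rw [e4, hOc, M.card] at e2
  exact arith (F O ψ) (F O χ) e1 (by push_cast at e2; linarith)

/-- **No quadratic offenders.** -/
theorem no_offender (M : Mod24 A) (B : Subgroup M24)
    (hB : ∀ b ∈ B, b * b = 1) (hne : B ≠ ⊥) (A0 : Subgroup A)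
    (h1 : ∀ b ∈ B, ∀ a ∈ A0, b • a = a) (h2 : ∀ b ∈ B, ∀ a : A, (b • a) * a ∈ A0) :
    Nat.card A0 * Nat.card B < 2 ^ 11 := by
  obtain ⟨v, hv, fv⟩ := M.exists_fixed
  rcases M.index_cases hv fv with idx | idx
  · exact small276 M hv fv idx B hB hne A0 h1 h2
  · obtain ⟨χ, hχ, fχ⟩ := M.dual.exists_fixed
    rcases M.dual.index_cases hχ fχ with idχ | idχ
    · have hinv : ∀ b ∈ B, b⁻¹ = b := fun b hb => inv_eq_of_mul_eq_one_left (hB b hb)
      have h3 := small276' M.dual hχ fχ idχ B hB hne (perp A0) (by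
        intro b hb η hη
        apply Dl.ext
        intro a
        rw [dl_smul_apply, hinv b hb]
        have h4 := hη _ (h2 b hb a)
        rw [map_mul] at h4
        exact mul_right_cancel (h4.trans (unit_sq (η a)).symm)) (by
        intro b hb η w hw
        rw [dl_mul_apply, dl_smul_apply, hinv b hb, h1 b hb w hw, unit_sq])
      have h4 := card_perp M.sq A0
      rw [M.card] at h4
      have h5 : 0 < Nat.card A0 := Nat.card_pos
      rw [← h4, mul_comm]
      exact Nat.mul_lt_mul_of_pos_right h3 h5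
    · exact (M.not_both hv fv idx hχ fχ idχ).elim

end Cfsg.Agent.H338.M24Orb
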