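import Cfsg.Agent.S1589
import Cfsg.Agent.S0365
import Cfsg.Agent.S0376
import Cfsg.Agent.SporadicStructure.M22Syl11

/-!
# Modules of order `2^11` for `M24`: orbits (helper338)

`Mod24 A`: `A` is an elementary abelian group of order `2^11` with a non-trivial action of `M24`.
There is a unique non-trivial vector `v` fixed by the element `f11` of order 11, and the index of its
stabiliser is 276 or 1288 (`index_cases`).
-/

set_option autoImplicit false
open scoped Pointwise
open Cfsg MulAction

namespace Cfsg.Agent.H338.M24Orb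

open Cfsg.Agent.SporadicStructure.M24IndexAbs Cfsg.Agent.SporadicStructure.M24IndexMain
open Cfsg.Agent.SporadicStructure.M23Index253 (exists_map card_golayPt)

/-- A non-trivial `M24`-module of order `2^11`. -/
structure Mod24 (A : Type*) [CommGroup A] [Finite A] [MulDistribMulAction M24 A] : Prop where
  card : Nat.card A = 2 ^ 11
  sq : ∀ a : A, a * a = 1
  ntriv : ∃ (g : M24) (a : A), g • a ≠ a

variable {A : Type*} [CommGroup A] [Finite A] [MulDistribMulAction M24 A]

theorem Mod24.faithful (M : Mod24 A) {g : M24} (hg : ∀ a : A, g • a = a) : g = 1 := by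
  have hs : IsSimpleGroup M24 := Cfsg.Agent.S0365.result
  let K : Subgroup M24 := (MulDistribMulAction.toMulAut M24 A).ker
  have hK : K.Normal := MonoidHom.normal_ker _
  have hgK : g ∈ K := by
    rw [MonoidHom.mem_ker]
    ext a
    exact hg a
  rcases hs.eq_bot_or_eq_top_of_normal K hK with h | h
  · rw [h] at hgK
    exact Subgroup.mem_bot.1 hgK
  · exfalso
    obtain ⟨g', a, h'⟩ := M.ntriv
    apply h'
    have h1 : g' ∈ K := by rw [h]; trivial
    rw [MonoidHom.mem_ker] at h1
    exact DFunLike.congr_fun h1 a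

/-- the subgroup of fixed vectors of an element -/
def fixS (A : Type*) [CommGroup A] [MulDistribMulAction M24 A] (g : M24) : Subgroup A where
  carrier := {a | g • a = a}
  one_mem' := smul_one g
  mul_mem' := fun {a b} ha hb => by
    show g • (a * b) = a * b
    rw [smul_mul', ha, hb]
  inv_mem' := fun {a} ha => by
    show g • a⁻¹ = a⁻¹
    rw [smul_inv', ha]

omit [Finite A] in
theorem mem_fixS {g : M24} {a : A} : a ∈ fixS A g ↔ g • a = a := Iff.rfl

theorem card_mod {α : Type*} [Finite α] [MulAction M24 α] {g : M24} {p : ℕ} (hp : p.Prime)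
    (hg : g ^ p = 1) : Nat.card α ≡ Nat.card {a : α // g • a = a} [MOD p] := by
  classical
  have : Fact p.Prime := ⟨hp⟩
  have : Fintype α := Fintype.ofFinite α
  have h := card_filter_modEq hg (Finset.univ : Finset α) (fun _ _ => Finset.mem_univ _)
  rw [Finset.card_univ, ← Nat.card_eq_fintype_card] at h
  have h1 : Nat.card {a : α // g • a = a} = (Finset.univ.filter fun x : α => g • x = x).card := by
    rw [Nat.card_eq_fintype_card, Fintype.card_subtype]
  rwa [h1]

theorem Mod24.card_fix (M : Mod24 A) {g : M24} {p : ℕ} (hp : p.Prime) (hg : g ^ p = 1) :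
    ∃ k, k ≤ 11 ∧ Nat.card (fixS A g) = 2 ^ k ∧ 2 ^ 11 ≡ 2 ^ k [MOD p] := by
  have h := card_mod (α := A) hp hg
  have h1 : Nat.card {a : A // g • a = a} = Nat.card (fixS A g) := rfl
  have h2 : Nat.card (fixS A g) ∣ 2 ^ 11 := by
    rw [← M.card]; exact Subgroup.card_subgroup_dvd_card _
  obtain ⟨k, hk, hk'⟩ := (Nat.dvd_prime_pow Nat.prime_two).1 h2
  refine ⟨k, hk, hk', ?_⟩
  rwa [h1, M.card, hk'] at h

theorem Mod24.card_fix_ne (M : Mod24 A) {g : M24} (hg : g ≠ 1) : Nat.card (fixS A g) ≠ 2 ^ 11 := by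
  intro h
  apply hg
  apply M.faithful
  intro a
  have h1 : fixS A g = ⊤ := by
    apply Subgroup.eq_top_of_card_eq
    rw [h, M.card]
  have h2 : a ∈ fixS A g := by rw [h1]; trivial
  exact h2

theorem Mod24.fix23 (M : Mod24 A) {g : M24} (hg : g ≠ 1) (h : g ^ 23 = 1) {a : A} (ha : g • a = a) :
    a = 1 := by
  obtain ⟨k, hk, hc, hm⟩ := M.card_fix (by norm_num : Nat.Prime 23) h
  have hk11 : k ≠ 11 := by
    rintro rfl
    exact M.card_fix_ne hg hc
  have hk0 : k = 0 := by
    unfold Nat.ModEq at hm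
    interval_cases k <;> simp_all
  rw [hk0, pow_zero] at hc
  have h1 : fixS A g = ⊥ := Subgroup.eq_bot_of_card_eq _ hc
  have h2 : a ∈ fixS A g := ha
  rw [h1] at h2
  exact Subgroup.mem_bot.1 h2

theorem Mod24.card_fix11 (M : Mod24 A) {g : M24} (hg : g ≠ 1) (h : g ^ 11 = 1) :
    Nat.card (fixS A g) = 2 := by
  obtain ⟨k, hk, hc, hm⟩ := M.card_fix (by norm_num : Nat.Prime 11) h
  have hk11 : k ≠ 11 := by
    rintro rfl
    exact M.card_fix_ne hg hc
  have hk0 : k = 1 := by
    unfold Nat.ModEq at hm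
    interval_cases k <;> simp_all
  rw [hc, hk0, pow_one]

theorem Mod24.fix11 (M : Mod24 A) {g : M24} (hg : g ≠ 1) (h : g ^ 11 = 1) :
    ∃ v : A, v ≠ 1 ∧ g • v = v ∧ ∀ a : A, g • a = a → a = 1 ∨ a = v := by
  classical
  have hc := M.card_fix11 hg h
  obtain ⟨x, y, hxy, hun⟩ := Nat.card_eq_two_iff.1 hc
  have h1 : (1 : fixS A g) ∈ ({x, y} : Set (fixS A g)) := by rw [hun]; trivial
  have key : ∀ z w : fixS A g, z ≠ w → ({z, w} : Set (fixS A g)) = Set.univ → z = 1 →
      ∃ v : A, v ≠ 1 ∧ g • v = v ∧ ∀ a : A, g • a = a → a = 1 ∨ a = v := by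
    intro z w hzw hzw' hz
    refine ⟨w, ?_, w.2, ?_⟩
    · intro hw
      exact hzw (hz.trans (Subtype.ext hw).symm)
    · intro a ha
      have h2 : (⟨a, ha⟩ : fixS A g) ∈ ({z, w} : Set (fixS A g)) := by rw [hzw']; trivial
      rcases h2 with h2 | h2
      · left; rw [hz] at h2; exact congrArg Subtype.val h2
      · right; exact congrArg Subtype.val h2
  rcases h1 with h1 | h1
  · exact key x y hxy hun h1.symm
  · refine key y x (Ne.symm hxy) ?_ h1.symm
    rw [Set.pair_comm]; exact hun

/-! ### The special elements -/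

/-- the element of order 11 -/
noncomputable def x11 : M24 := ⟨_, Cfsg.Agent.SporadicStructure.M22Syl11.f11_mem⟩

/-- the element of order 5 -/
noncomputable def y5 : M24 := ⟨_, Cfsg.Agent.SporadicStructure.M22Syl11.twist_mem⟩

theorem x11_pow : x11 ^ 11 = 1 :=
  Subtype.ext Cfsg.Agent.SporadicStructure.M22Syl11.f11_pow_eleven

theorem x11_ne : x11 ≠ 1 := fun h =>
  Cfsg.Agent.SporadicStructure.M22Syl11.f11_ne_one (congrArg Subtype.val h)

theorem y5_mul : y5 * x11 = x11 ^ 3 * y5 :=
  Subtype.ext Cfsg.Agent.SporadicStructure.M22Syl11.twist_mul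

theorem y5_pow : y5 ^ 5 = 1 :=
  Subtype.ext Cfsg.Agent.SporadicStructure.M22Syl11.twist_pow_five

theorem y5_ne : y5 ≠ 1 := fun h =>
  Cfsg.Agent.SporadicStructure.M22Syl11.twist_ne_one (congrArg Subtype.val h)

omit [Finite A] in
theorem smul_pow_fix {v : A} {g : M24} (h : g • v = v) (n : ℕ) : g ^ n • v = v := by
  induction n with
  | zero => rw [pow_zero, one_smul]
  | succ n ih => rw [pow_succ, mul_smul, h, ih]

theorem Mod24.y5_fix (M : Mod24 A) {v : A} (hv : v ≠ 1) (h : x11 • v = v) : y5 • v = v := by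
  obtain ⟨w, hw, hww, huniq⟩ := M.fix11 x11_ne x11_pow
  have hvw : v = w := (huniq v h).resolve_left hv
  have h1 : x11 ^ 3 • (y5 • v) = y5 • v := by
    rw [← mul_smul, ← y5_mul, mul_smul, h]
  have h2 : x11 • (y5 • v) = y5 • v := by
    have h3 := smul_pow_fix h1 4
    rw [← pow_mul, show 3 * 4 = 11 + 1 from rfl, pow_add, x11_pow, one_mul, pow_one] at h3
    exact h3
  rcases huniq _ h2 with h3 | h3
  · exfalso
    apply hv
    have := congrArg (fun a => y5⁻¹ • a) h3
    simpa using this
  · rw [h3, hvw]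

theorem exists_order23 : ∃ g : M24, g ≠ 1 ∧ g ^ 23 = 1 := by
  have : Fact (Nat.Prime 23) := ⟨by norm_num⟩
  obtain ⟨g, -, hg1, hg⟩ := exists_prime_elem (⊤ : Subgroup M24) 23 (by
    rw [Subgroup.card_top, Cfsg.Agent.S0364.result]; norm_num)
  exact ⟨g, hg1, hg⟩

/-! ### No subgroup of index 23 -/

theorem card_inf_stab (H : Subgroup M24) (b : GolayPt) (hH : Nat.card H = 10644480) :
    Nat.card (H ⊓ stabilizer M24 b : Subgroup M24) = 443520 := by
  have h1 : Nat.card (stabilizer M24 b) = 10200960 := Cfsg.Agent.S0376.result b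
  have hHi : H.index = 23 := by
    have h2 := H.card_mul_index
    rw [hH, Cfsg.Agent.S0364.result] at h2
    omega
  have hbi : (stabilizer M24 b).index = 24 := by
    have h2 := (stabilizer M24 b).card_mul_index
    rw [h1, Cfsg.Agent.S0364.result] at h2
    omega
  -- coprime indices
  have h3 : (H ⊓ stabilizer M24 b : Subgroup M24).index = H.index * (stabilizer M24 b).index := by
    apply le_antisymm Subgroup.index_inf_le
    have h5 : H.index ∣ (H ⊓ stabilizer M24 b : Subgroup M24).index :=
      Subgroup.index_dvd_of_le inf_le_left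
    have h6 : (stabilizer M24 b).index ∣ (H ⊓ stabilizer M24 b : Subgroup M24).index :=
      Subgroup.index_dvd_of_le inf_le_right
    apply Nat.le_of_dvd (Nat.pos_of_ne_zero Subgroup.index_ne_zero_of_finite)
    rw [hHi, hbi] at *
    exact Nat.Coprime.mul_dvd_of_dvd_of_dvd (by norm_num) h5 h6
  have h4 := (H ⊓ stabilizer M24 b).card_mul_index
  rw [h3, hHi, hbi, Cfsg.Agent.S0364.result] at h4
  omega

/-- the pointwise stabiliser of two points -/
def st2 (b c : GolayPt) : Subgroup M24 := stabilizer M24 b ⊓ stabilizer M24 c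

theorem mem_st2 {b c : GolayPt} {g : M24} : g ∈ st2 b c ↔ g • b = b ∧ g • c = c := Iff.rfl

theorem st2_comm (b c : GolayPt) : st2 b c = st2 c b := inf_comm _ _

/-- 4-transitivity -/
theorem exists_map4 {a b c d a' b' c' d' : GolayPt} (hab : a ≠ b) (hac : a ≠ c) (had : a ≠ d)
    (hbc : b ≠ c) (hbd : b ≠ d) (hcd : c ≠ d) (hab' : a' ≠ b') (hac' : a' ≠ c') (had' : a' ≠ d')
    (hbc' : b' ≠ c') (hbd' : b' ≠ d') (hcd' : c' ≠ d') :
    ∃ g : M24, g • a = a' ∧ g • b = b' ∧ g • c = c' ∧ g • d = d' := by
  obtain ⟨g, hg⟩ := exists_map Cfsg.Agent.S0366.result (by norm_num : 4 ≤ 5) ![a, b, c, d]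
    ![a', b', c', d'] (by
      intro i j; fin_cases i <;> fin_cases j <;>
        simp [hab, hac, had, hbc, hbd, hcd, hab.symm, hac.symm, had.symm, hbc.symm, hbd.symm,
          hcd.symm]) (by
      intro i j; fin_cases i <;> fin_cases j <;>
        simp [hab', hac', had', hbc', hbd', hcd', hab'.symm, hac'.symm, had'.symm, hbc'.symm,
          hbd'.symm, hcd'.symm])
  exact ⟨g, hg 0, hg 1, hg 2, hg 3⟩

theorem exists_ne3 (a b c : GolayPt) : ∃ d : GolayPt, d ≠ a ∧ d ≠ b ∧ d ≠ c := by
  by_contra hcon
  push Not at hcon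
  have h1 : (Finset.univ : Finset GolayPt) ⊆ {a, b, c} := by
    intro d _
    simp only [Finset.mem_insert, Finset.mem_singleton]
    by_cases h1 : d = a
    · exact Or.inl h1
    · by_cases h2 : d = b
      · exact Or.inr (Or.inl h2)
      · exact Or.inr (Or.inr (hcon d h1 h2))
  have h2 := Finset.card_le_card h1
  rw [Finset.card_univ, card24] at h2
  have h3 := Finset.card_le_three (a := a) (b := b) (c := c)
  omega

theorem exists_ne4 (a b c d : GolayPt) : ∃ e : GolayPt, e ≠ a ∧ e ≠ b ∧ e ≠ c ∧ e ≠ d := by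
  by_contra hcon
  push Not at hcon
  have h1 : (Finset.univ : Finset GolayPt) ⊆ {a, b, c, d} := by
    intro e _
    simp only [Finset.mem_insert, Finset.mem_singleton]
    by_cases h1 : e = a
    · exact Or.inl h1
    · by_cases h2 : e = b
      · exact Or.inr (Or.inl h2)
      · by_cases h3 : e = c
        · exact Or.inr (Or.inr (Or.inl h3))
        · exact Or.inr (Or.inr (Or.inr (hcon e h1 h2 h3)))
  have h2 := Finset.card_le_card h1
  rw [Finset.card_univ, card24] at h2
  have h3 := Finset.card_le_four (a := a) (b := b) (c := c) (d := d)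
  omega

/-- a point fixed by the pointwise stabiliser of three points is one of them -/
theorem eq_of_fix3 {a b c x : GolayPt} (hab : a ≠ b) (hac : a ≠ c) (hbc : b ≠ c)
    (h : ∀ g : M24, g • a = a → g • b = b → g • c = c → g • x = x) : x = a ∨ x = b ∨ x = c := by
  by_contra hcon
  push Not at hcon
  obtain ⟨y, h1, h2, h3, h4⟩ := exists_ne4 a b c x
  obtain ⟨g, ha, hb, hc, hx⟩ := exists_map4 hab hac (Ne.symm hcon.1) hbc (Ne.symm hcon.2.1)
    (Ne.symm hcon.2.2) hab hac h1.symm hbc h2.symm h3.symm
  exact h4 ((h g ha hb hc).symm.trans hx).symm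

theorem eq_of_fix2 {a b x : GolayPt} (hab : a ≠ b)
    (h : ∀ g : M24, g • a = a → g • b = b → g • x = x) : x = a ∨ x = b := by
  obtain ⟨c, h1, h2, h3⟩ := exists_ne3 a b x
  rcases eq_of_fix3 hab h1.symm h2.symm (fun g ha hb _ => h g ha hb) with h4 | h4 | h4
  · exact Or.inl h4
  · exact Or.inr h4
  · exact absurd h4.symm h3

theorem index_fixing {s : Set GolayPt} {n : ℕ} (hn : n ≤ 5) (hs : s.ncard = n) :
    (fixingSubgroup M24 s).index * Nat.factorial (24 - n) = Nat.factorial 24 := by
  have h50 : IsMultiplyPretransitive M24 GolayPt 5 := Cfsg.Agent.S0366.result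
  have h5 : IsMultiplyPretransitive M24 GolayPt n :=
    isMultiplyPretransitive_of_le (n := 5) hn (by rw [card_golayPt]; norm_num)
  have h1 := h5.index_of_fixingSubgroup_mul hs
  rwa [card_golayPt] at h1

theorem st2_eq (b c : GolayPt) : st2 b c = fixingSubgroup M24 ({b, c} : Set GolayPt) := by
  ext g
  rw [mem_st2, mem_fixingSubgroup_iff]
  simp

theorem card_st2 {b c : GolayPt} (hbc : b ≠ c) : Nat.card (st2 b c) = 443520 := by
  have h1 := index_fixing (s := ({b, c} : Set GolayPt)) (by norm_num : 2 ≤ 5) (Set.ncard_pair hbc)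
  have h2 : (fixingSubgroup M24 ({b, c} : Set GolayPt)).index = 552 := by
    apply Nat.eq_of_mul_eq_mul_right (Nat.factorial_pos (24 - 2))
    rw [h1]
    decide +kernel
  have h3 := (fixingSubgroup M24 ({b, c} : Set GolayPt)).card_mul_index
  rw [h2, Cfsg.Agent.S0364.result] at h3
  rw [st2_eq]
  omega

theorem no_index_23 (H : Subgroup M24) : H.index ≠ 23 := by
  intro hi
  have hH : Nat.card H = 10644480 := by
    have h2 := H.card_mul_index
    rw [hi, Cfsg.Agent.S0364.result] at h2
    omega
  have key : ∀ b : GolayPt, ∃ c : GolayPt, c ≠ b ∧ H ⊓ stabilizer M24 b = st2 b c := by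
    intro b
    have hc := card_inf_stab H b hH
    obtain ⟨x, hx⟩ := orbit_size (by exact card24) (fixBound Cfsg.Agent.S0364.result Cfsg.Agent.S0366.result)
      (H ⊓ stabilizer M24 b) (by rw [hc]; norm_num) (by rw [hc]; norm_num) (by rw [hc]; norm_num)
    rcases hx with hx | hx
    swap
    · exfalso
      have h1 : orb (H ⊓ stabilizer M24 b) x = Finset.univ := by
        apply Finset.eq_univ_of_card
        rw [hx, card24]
      have h2 : orb (H ⊓ stabilizer M24 b) x ⊆ {x} ∪ {b}ᶜ := by
        intro y hy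
        by_cases hyb : y = b
        · subst hyb
          obtain ⟨k, hk, hkx⟩ := mem_orb.1 hy
          have h3 : k⁻¹ • y = y := ((H ⊓ stabilizer M24 y).inv_mem hk).2
          have h4 : x = y := by rw [← h3, ← hkx, inv_smul_smul]
          rw [h4]
          simp
        · simp [hyb]
      by_cases hxb : x = b
      · subst hxb
        have h3 : orb (H ⊓ stabilizer M24 x) x ⊆ {x} := by
          intro y hy
          obtain ⟨k, hk, hkx⟩ := mem_orb.1 hy
          rw [Finset.mem_singleton, ← hkx]
          exact hk.2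
        have h4 := Finset.card_le_card h3
        rw [hx, Finset.card_singleton] at h4
        omega
      · have h3 : b ∉ orb (H ⊓ stabilizer M24 b) x := by
          intro h4
          obtain ⟨k, hk, hkx⟩ := mem_orb.1 h4
          have h5 : k⁻¹ • b = b := ((H ⊓ stabilizer M24 b).inv_mem hk).2
          apply hxb
          rw [← h5, ← hkx, inv_smul_smul]
        rw [h1] at h3
        exact h3 (Finset.mem_univ _)
    · -- the complement of the orbit is a fixed pair containing `b`
      have hbx : b ∉ orb (H ⊓ stabilizer M24 b) x := by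
        intro h4
        obtain ⟨k, hk, hkx⟩ := mem_orb.1 h4
        have h5 : k⁻¹ • b = b := ((H ⊓ stabilizer M24 b).inv_mem hk).2
        have h6 : x = b := by rw [← h5, ← hkx, inv_smul_smul]
        subst h6
        have h3 : orb (H ⊓ stabilizer M24 x) x ⊆ {x} := by
          intro y hy
          obtain ⟨k, hk, hkx⟩ := mem_orb.1 hy
          rw [Finset.mem_singleton, ← hkx]
          exact hk.2
        have h4 := Finset.card_le_card h3
        rw [hx, Finset.card_singleton] at h4
        omega
      have hcc : ((orb (H ⊓ stabilizer M24 b) x)ᶜ : Finset GolayPt).card = 2 := by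
        rw [Finset.card_compl, card24, hx]
      obtain ⟨c, d, hcd, hcd'⟩ := Finset.card_eq_two.1 hcc
      have hbm : b ∈ ({c, d} : Finset GolayPt) := by
        rw [← hcd', Finset.mem_compl]; exact hbx
      obtain ⟨e, hbe, hbe'⟩ : ∃ e, b ≠ e ∧ (orb (H ⊓ stabilizer M24 b) x)ᶜ = {b, e} := by
        rw [Finset.mem_insert, Finset.mem_singleton] at hbm
        rcases hbm with rfl | rfl
        · exact ⟨d, hcd, hcd'⟩
        · exact ⟨c, Ne.symm hcd, by rw [hcd', Finset.pair_comm]⟩
      refine ⟨e, Ne.symm hbe, ?_⟩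
      apply Subgroup.eq_of_le_of_card_ge
      · intro k hk
        refine mem_st2.2 ⟨hk.2, ?_⟩
        have h4 : k • e ∈ (orb (H ⊓ stabilizer M24 b) x)ᶜ := by
          rw [Finset.mem_compl]
          intro h5
          have h6 := smul_mem_orb ((H ⊓ stabilizer M24 b).inv_mem hk) h5
          rw [inv_smul_smul] at h6
          have h7 : e ∈ (orb (H ⊓ stabilizer M24 b) x)ᶜ := by
            rw [hbe']; simp
          exact (Finset.mem_compl.1 h7) h6
        rw [hbe', Finset.mem_insert, Finset.mem_singleton] at h4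
        rcases h4 with h4 | h4
        · exfalso
          apply hbe
          have h5 : k • b = b := hk.2
          exact MulAction.injective k (h5.trans h4.symm)
        · exact h4
      · rw [hc, card_st2 hbe]
  -- final contradiction
  obtain ⟨c, hcb, hc⟩ := key none
  obtain ⟨d, hdb, hdc, -⟩ := exists_ne3 none c c
  obtain ⟨e, hed, he⟩ := key d
  -- `e` is `none` or `c`
  have h1 : e = none ∨ e = c ∨ e = d := by
    apply eq_of_fix3 (Ne.symm hcb) (Ne.symm hdb) (Ne.symm hdc)
    intro g hg1 hg2 hg3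
    have h2 : g ∈ H ⊓ stabilizer M24 d := by
      refine ⟨?_, hg3⟩
      have h4 : g ∈ st2 none c := ⟨hg1, hg2⟩
      rw [← hc] at h4
      exact h4.1
    rw [he] at h2
    exact h2.2
  rcases h1 with h1 | h1 | h1
  · rw [h1] at he
    -- `st2 none d ≤ st2 none c`
    have h2 : c = none ∨ c = d := by
      apply eq_of_fix2 (Ne.symm hdb)
      intro g hg1 hg2
      have h3 : g ∈ H ⊓ stabilizer M24 d := by rw [he]; exact ⟨hg2, hg1⟩
      have h4 : g ∈ H ⊓ stabilizer M24 (none : GolayPt) := ⟨h3.1, hg1⟩
      rw [hc] at h4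
      exact h4.2
    rcases h2 with h2 | h2
    · exact hcb h2
    · exact hdc h2.symm
  · rw [h1] at he
    obtain ⟨f, hfc, hf⟩ := key c
    have h2 : f = none := by
      have h3 : f = c ∨ f = none := by
        apply eq_of_fix2 hcb
        intro g hg1 hg2
        have h4 : g ∈ st2 none c := ⟨hg2, hg1⟩
        rw [← hc] at h4
        have h5 : g ∈ H ⊓ stabilizer M24 c := ⟨h4.1, hg1⟩
        rw [hf] at h5
        exact h5.2
      exact h3.resolve_left hfc
    have h3 : f = d := by
      have h3 : f = c ∨ f = d := by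
        apply eq_of_fix2 (Ne.symm hdc)
        intro g hg1 hg2
        have h4 : g ∈ st2 d c := ⟨hg2, hg1⟩
        rw [← he] at h4
        have h5 : g ∈ H ⊓ stabilizer M24 c := ⟨h4.1, hg1⟩
        rw [hf] at h5
        exact h5.2
      exact h3.resolve_left hfc
    exact hdb (h3.symm.trans h2)
  · exact hed h1

/-! ### The orbit of the vector fixed by an element of order 11 -/

theorem Mod24.index_cases (M : Mod24 A) {v : A} (hv : v ≠ 1) (h : x11 • v = v) :
    (stabilizer M24 v).index = 276 ∨ (stabilizer M24 v).index = 1288 := by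
  classical
  have : Fact (Nat.Prime 11) := ⟨by norm_num⟩
  have : Fact (Nat.Prime 23) := ⟨by norm_num⟩
  have : Fintype A := Fintype.ofFinite A
  obtain ⟨w, hw, hww, huniq⟩ := M.fix11 x11_ne x11_pow
  have hvw : v = w := (huniq v h).resolve_left hv
  subst hvw
  set n := (stabilizer M24 v).index with hn
  let O : Finset A := Finset.univ.filter fun a => a ∈ orbit M24 v
  have hO : O.card = n := by
    rw [hn, index_stabilizer, ← Set.ncard_coe_finset]
    congr 1
    ext a
    simp [O]
  have h1O : (1 : A) ∉ O := by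
    intro h1
    obtain ⟨g, hg⟩ := (Finset.mem_filter.1 h1).2
    apply hv
    have h2 : g • v = 1 := hg
    have := congrArg (fun a => g⁻¹ • a) h2
    simpa using this
  let T : Finset A := (insert 1 O)ᶜ
  have hT : T.card = 2047 - n := by
    rw [Finset.card_compl, Finset.card_insert_of_notMem h1O, hO, ← Nat.card_eq_fintype_card, M.card]
    omega
  have hle : n ≤ 2047 := by
    have h2 := Finset.card_le_univ (insert 1 O)
    rw [Finset.card_insert_of_notMem h1O, hO, ← Nat.card_eq_fintype_card, M.card] at h2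
    omega
  have hTi : ∀ g : M24, ∀ a ∈ T, g • a ∈ T := by
    intro g a ha
    rw [Finset.mem_compl, Finset.mem_insert, not_or] at ha ⊢
    refine ⟨?_, ?_⟩
    · intro h2
      apply ha.1
      have := congrArg (fun a => g⁻¹ • a) h2
      simpa using this
    · intro h2
      apply ha.2
      obtain ⟨k, hk⟩ := (Finset.mem_filter.1 h2).2
      refine Finset.mem_filter.2 ⟨Finset.mem_univ _, ⟨g⁻¹ * k, ?_⟩⟩
      show (g⁻¹ * k) • v = a
      have hk' : k • v = g • a := hk
      rw [mul_smul, hk', inv_smul_smul]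
  have hvO : v ∈ O := Finset.mem_filter.2 ⟨Finset.mem_univ _, mem_orbit_self v⟩
  have h11 : 11 ∣ T.card := by
    have h2 := card_filter_modEq x11_pow T (hTi x11)
    have h3 : T.filter (fun a => x11 • a = a) = ∅ := by
      rw [Finset.filter_eq_empty_iff]
      intro a ha hxa
      rw [Finset.mem_compl, Finset.mem_insert, not_or] at ha
      rcases huniq a hxa with h4 | h4
      · exact ha.1 h4
      · rw [h4] at ha; exact ha.2 hvO
    rw [h3, Finset.card_empty] at h2
    exact (Nat.modEq_zero_iff_dvd).1 h2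
  have h23 : 23 ∣ T.card := by
    obtain ⟨g, hg1, hg⟩ := exists_order23
    have h2 := card_filter_modEq hg T (hTi g)
    have h3 : T.filter (fun a => g • a = a) = ∅ := by
      rw [Finset.filter_eq_empty_iff]
      intro a ha hxa
      rw [Finset.mem_compl, Finset.mem_insert, not_or] at ha
      exact ha.1 (M.fix23 hg1 hg hxa)
    rw [h3, Finset.card_empty] at h2
    exact (Nat.modEq_zero_iff_dvd).1 h2
  have h253 : 253 ∣ 2047 - n := by
    rw [← hT]
    exact Nat.Coprime.mul_dvd_of_dvd_of_dvd (by norm_num : Nat.Coprime 11 23) h11 h23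
  have hdvd : n ∣ 244823040 := by
    rw [← Cfsg.Agent.S0364.result, hn]
    exact Subgroup.index_dvd_card _
  have hpos : 0 < n := Nat.pos_of_ne_zero Subgroup.index_ne_zero_of_finite
  -- `5` divides the order of the stabiliser
  have h5 : 5 ∣ Nat.card (stabilizer M24 v) := by
    have : Fact (Nat.Prime 5) := ⟨by norm_num⟩
    have h3 : y5 ∈ stabilizer M24 v := M.y5_fix hv h
    have h2 : orderOf (⟨y5, h3⟩ : stabilizer M24 v) ∣ Nat.card (stabilizer M24 v) :=
      orderOf_dvd_natCard _
    rwa [Subgroup.orderOf_mk, orderOf_eq_prime y5_pow y5_ne] at h2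
  have hmul := (stabilizer M24 v).card_mul_index
  rw [← hn, Cfsg.Agent.S0364.result] at hmul
  obtain ⟨m, hm⟩ := h253
  have hm8 : m ≤ 8 := by omega
  have hn' : n = 2047 - 253 * m := by omega
  interval_cases m
  · norm_num at hn'; rw [hn'] at hdvd; norm_num at hdvd
  · norm_num at hn'; rw [hn'] at hdvd; norm_num at hdvd
  · norm_num at hn'; rw [hn'] at hdvd; norm_num at hdvd
  · right; norm_num at hn'; exact hn'
  · exfalso
    norm_num at hn'
    rw [hn'] at hmul
    have h6 : Nat.card (stabilizer M24 v) = 236544 := by omega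
    rw [h6] at h5
    norm_num at h5
  · norm_num at hn'; rw [hn'] at hdvd; norm_num at hdvd
  · norm_num at hn'; rw [hn'] at hdvd; norm_num at hdvd
  · left; norm_num at hn'; exact hn'
  · exfalso
    norm_num at hn'
    exact no_index_23 (stabilizer M24 v) hn'

end Cfsg.Agent.H338.M24Orb
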