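import Cfsg.Agent.Lib.MinNormalNonabelian
import Cfsg.Agent.Lib.SubnormalJoin
import Cfsg.Prelude.Def_Solvable
import Cfsg.Prelude.Def_Transfer

/-!
# Local recognition: reduction to simple groups (helper338)

`Loc V n p`: `V` is a self-centralising elementary abelian subgroup of order `2^n` on which its
normaliser `N` acts irreducibly, `N/V` is simple of order divisible by a prime `p > n`, and
`O(C(s)) = 1` for the 2-central involutions of `N`.  Then `V` is normal or there is a simple normal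
subgroup `K` containing `N` (`reduce`).
-/

set_option autoImplicit false

namespace Cfsg.Agent.H338.Reduce

open Subgroup

variable {G : Type*} [Group G]

/-- a `2`-group normalising a non-trivial 2-group centralises a non-trivial element of it. -/
theorem exists_fixed [Finite G] {p : ℕ} [hp : Fact p.Prime] (P W : Subgroup G) (hP : IsPGroup p P)
    (hW : W ≠ ⊥) (hW2 : IsPGroup p W) (hn : ∀ x ∈ P, ∀ w ∈ W, x * w * x⁻¹ ∈ W) :
    ∃ w ∈ W, w ≠ 1 ∧ ∀ x ∈ P, x * w = w * x := by
  let act : MulAction P W :=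
    { smul := fun x w => ⟨x * w * (x : G)⁻¹, hn x x.2 w w.2⟩
      one_smul := fun w => Subtype.ext (by
        show ((1 : P) : G) * w * ((1 : P) : G)⁻¹ = w
        simp)
      mul_smul := fun x y w => Subtype.ext (by
        show ((x * y : P) : G) * w * ((x * y : P) : G)⁻¹ = x * (y * w * (y : G)⁻¹) * (x : G)⁻¹
        simp [mul_assoc]) }
  have hdvd : p ∣ Nat.card W := by
    obtain ⟨k, hk⟩ := IsPGroup.iff_card.1 hW2
    have hk0 : k ≠ 0 := by
      rintro rfl
      rw [pow_zero] at hk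
      exact hW (Subgroup.card_eq_one.1 hk)
    rw [hk]
    exact dvd_pow_self p hk0
  have h1 : (1 : W) ∈ MulAction.fixedPoints P W := by
    intro x
    apply Subtype.ext
    show (x : G) * ((1 : W) : G) * (x : G)⁻¹ = ((1 : W) : G)
    simp
  obtain ⟨b, hb, hb1⟩ := hP.exists_fixed_point_of_prime_dvd_card_of_fixed_point W hdvd h1
  refine ⟨b, b.2, fun h => hb1 (Subtype.ext h.symm), ?_⟩
  intro x hx
  have h2 := congrArg Subtype.val (hb ⟨x, hx⟩)
  have h3 : x * (b : G) * x⁻¹ = b := h2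
  rw [mul_inv_eq_iff_eq_mul] at h3
  exact h3

/-- congruence for the fixed points of an element of prime order on a subgroup -/
theorem card_fix_modEq [Finite G] {p : ℕ} (hp : p.Prime) {y : G} (hy : y ^ p = 1) (W : Subgroup G)
    (hn : ∀ w ∈ W, y * w * y⁻¹ ∈ W) :
    Nat.card W ≡ Nat.card (W ⊓ centralizer {y} : Subgroup G) [MOD p] := by
  classical
  have : Fact p.Prime := ⟨hp⟩
  have : Fintype G := Fintype.ofFinite G
  have : Fintype W := Fintype.ofFinite W
  let f : Function.End W := fun w => ⟨y * w * y⁻¹, hn w w.2⟩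
  have hfn : ∀ n : ℕ, ∀ w : W, (((f ^ n) w : W) : G) = y ^ n * w * (y ^ n)⁻¹ := by
    intro n
    induction n with
    | zero => intro x; simp [Function.End.one_def]
    | succ n ih =>
      intro x
      rw [pow_succ]
      show (((f ^ n) (f x) : W) : G) = _
      rw [ih (f x)]
      show y ^ n * (y * x * y⁻¹) * (y ^ n)⁻¹ = _
      rw [pow_succ]
      simp [mul_assoc]
  have hf : f ^ p ^ 1 = 1 := by
    funext x
    apply Subtype.ext
    rw [hfn, pow_one, hy]
    simp [Function.End.one_def]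
  have h1 := Equiv.Perm.card_fixedPoints_modEq hf
  rw [← Nat.card_eq_fintype_card, ← Nat.card_eq_fintype_card] at h1
  have h2 : Nat.card (Function.fixedPoints f) = Nat.card (W ⊓ centralizer {y} : Subgroup G) := by
    refine Nat.card_congr ⟨fun x => ⟨x.1.1, x.1.2, mem_centralizer_singleton_iff.2 ?_⟩,
      fun z => ⟨⟨z.1, z.2.1⟩, ?_⟩, ?_, ?_⟩
    · have h3 : y * x.1.1 * y⁻¹ = x.1.1 := congrArg Subtype.val x.2
      rw [mul_inv_eq_iff_eq_mul] at h3
      exact h3.symm
    · apply Subtype.ext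
      show y * z.1 * y⁻¹ = z.1
      rw [mul_inv_eq_iff_eq_mul]
      exact (mem_centralizer_singleton_iff.1 z.2.2).symm
    · intro x; rfl
    · intro z; rfl
  rw [h2] at h1
  exact h1

/-- The hypotheses. -/
structure Loc (V : Subgroup G) (n p : ℕ) : Prop where
  sq : ∀ v ∈ V, v * v = 1
  card : Nat.card V = 2 ^ n
  two_le : 2 ≤ n
  cent : ∀ g : G, (∀ v ∈ V, g * v = v * g) → g ∈ V
  irr : ∀ W : Subgroup G, W ≤ V → (∀ g ∈ normalizer (V : Set G), ∀ w ∈ W, g * w * g⁻¹ ∈ W) →
    W = ⊥ ∨ W = V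
  simple : ∀ M : Subgroup G, V ≤ M → M ≤ normalizer (V : Set G) →
    (∀ g ∈ normalizer (V : Set G), ∀ m ∈ M, g * m * g⁻¹ ∈ M) →
    M = V ∨ M = normalizer (V : Set G)
  prime : p.Prime
  lt : n < p
  y : ∃ y ∈ normalizer (V : Set G), orderOf y = p
  core : ∀ (P : Subgroup G), P ≤ normalizer (V : Set G) → IsPGroup 2 P → V ≤ P →
    (∀ Q : Subgroup G, Q ≤ normalizer (V : Set G) → IsPGroup 2 Q → P ≤ Q → Q = P) →
    ∀ s ∈ P, s ≠ 1 → s * s = 1 → (∀ x ∈ P, x * s = s * x) →
    ∀ R : Subgroup G, R ≤ centralizer {s} → (∀ g ∈ centralizer ({s} : Set G), ∀ r ∈ R,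
      g * r * g⁻¹ ∈ R) → (Nat.card R).Coprime 2 → R = ⊥

variable {V : Subgroup G} {n p : ℕ}

theorem Loc.comm (H : Loc V n p) {a b : G} (ha : a ∈ V) (hb : b ∈ V) : a * b = b * a := by
  have h1 := H.sq _ (V.mul_mem ha hb)
  have h2 := H.sq a ha
  have h3 := H.sq b hb
  calc a * b = (a * b)⁻¹ := eq_inv_of_mul_eq_one_left h1
    _ = b⁻¹ * a⁻¹ := mul_inv_rev _ _
    _ = b * a := by rw [inv_eq_of_mul_eq_one_left h2, inv_eq_of_mul_eq_one_left h3]

theorem Loc.le (_ : Loc V n p) : V ≤ normalizer (V : Set G) := le_normalizer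

theorem conj_mem_V {g v : G} (hg : g ∈ normalizer (V : Set G)) (hv : v ∈ V) : g * v * g⁻¹ ∈ V :=
  (mem_normalizer_iff.1 hg v).1 hv

theorem Loc.isPGroup [Finite G] (H : Loc V n p) : IsPGroup 2 V := IsPGroup.of_card H.card

theorem Loc.ne_bot [Finite G] (H : Loc V n p) : V ≠ ⊥ := by
  rintro h
  have h1 := H.card
  rw [h, Subgroup.card_bot] at h1
  have h2 := H.two_le
  have h3 : 2 ^ 2 ≤ 2 ^ n := Nat.pow_le_pow_right (by norm_num) h2
  omega

/-- A 2-central involution of `N` in `V` whose centraliser has trivial core. -/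
theorem Loc.exists_s [Finite G] (H : Loc V n p) :
    ∃ s ∈ V, s ≠ 1 ∧ ∀ R : Subgroup G, R ≤ centralizer {s} →
      (∀ g ∈ centralizer ({s} : Set G), ∀ r ∈ R, g * r * g⁻¹ ∈ R) → (Nat.card R).Coprime 2 →
      R = ⊥ := by
  classical
  have : Fact (Nat.Prime 2) := ⟨Nat.prime_two⟩
  -- a maximal 2-subgroup of `N` containing `V`
  have hfin : Set.Finite {P : Subgroup G | P ≤ normalizer (V : Set G) ∧ IsPGroup 2 P ∧ V ≤ P} :=
    Set.toFinite _
  obtain ⟨P, hP⟩ := hfin.exists_maximal ⟨V, H.le, H.isPGroup, le_rfl⟩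
  obtain ⟨⟨hPN, hP2, hVP⟩, hPmax⟩ := hP
  have hmax : ∀ Q : Subgroup G, Q ≤ normalizer (V : Set G) → IsPGroup 2 Q → P ≤ Q → Q = P :=
    fun Q h1 h2 h3 => le_antisymm (hPmax ⟨h1, h2, hVP.trans h3⟩ h3) h3
  obtain ⟨s, hs, hs1, hsc⟩ := exists_fixed P V hP2 H.ne_bot H.isPGroup
    (fun x hx w hw => conj_mem_V (hPN hx) hw)
  exact ⟨s, hs, hs1, H.core P hPN hP2 hVP hmax s (hVP hs) hs1 (H.sq s hs) hsc⟩

/-- No normal subgroups of odd order. -/
theorem Loc.no_odd [Finite G] (H : Loc V n p) (R : Subgroup G) (hR : R.Normal)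
    (hodd : (Nat.card R).Coprime 2) : R = ⊥ := by
  obtain ⟨s, hs, hs1, hcore⟩ := H.exists_s
  -- centralisers of conjugates of `s`
  have hC : ∀ g : G, ∀ r ∈ R, r * (g * s * g⁻¹) = (g * s * g⁻¹) * r → r = 1 := by
    intro g r hr hrs
    have h1 : R ⊓ centralizer {s} = ⊥ := by
      apply hcore _ inf_le_right
      · intro g' hg' r' hr'
        exact ⟨hR.conj_mem _ hr'.1 g', (centralizer {s}).mul_mem
          ((centralizer {s}).mul_mem hg' hr'.2) ((centralizer {s}).inv_mem hg')⟩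
      · exact Nat.Coprime.coprime_dvd_left (Subgroup.card_dvd_of_le inf_le_left) hodd
    have h2 : g⁻¹ * r * g ∈ R ⊓ centralizer {s} := by
      refine ⟨?_, mem_centralizer_singleton_iff.2 ?_⟩
      · have := hR.conj_mem _ hr g⁻¹
        rwa [inv_inv] at this
      · calc g⁻¹ * r * g * s = g⁻¹ * (r * (g * s * g⁻¹)) * g := by group
          _ = g⁻¹ * ((g * s * g⁻¹) * r) * g := by rw [hrs]
          _ = s * (g⁻¹ * r * g) := by group
    rw [h1, mem_bot] at h2
    calc r = g * (g⁻¹ * r * g) * g⁻¹ := by group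
      _ = 1 := by rw [h2]; group
  -- conjugates invert `R`
  have hinv : ∀ g : G, ∀ r ∈ R, (g * s * g⁻¹) * r * (g * s * g⁻¹)⁻¹ = r⁻¹ := by
    intro g r hr
    set t := g * s * g⁻¹ with ht
    have htt : t * t = 1 := by
      rw [ht]
      calc g * s * g⁻¹ * (g * s * g⁻¹) = g * (s * s) * g⁻¹ := by group
        _ = 1 := by rw [H.sq s hs]; group
    let φ : R →* R := (MulAut.conjNormal t : MulAut R).toMonoidHom
    have hφ : ∀ x : R, ((φ x : R) : G) = t * x * t⁻¹ := fun x => MulAut.conjNormal_apply t x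
    have h1 : MonoidHom.FixedPointFree φ := by
      intro x hx
      have h2 := congrArg Subtype.val hx
      rw [hφ, mul_inv_eq_iff_eq_mul] at h2
      exact Subtype.ext (hC g x x.2 h2.symm)
    have h2 : Function.Involutive φ := by
      intro x
      apply Subtype.ext
      rw [hφ, hφ]
      calc t * (t * (x : G) * t⁻¹) * t⁻¹ = (t * t) * x * (t * t)⁻¹ := by group
        _ = x := by rw [htt]; group
    have h3 := h1.coe_eq_inv_of_involutive h2
    have h4 := congrFun h3 ⟨r, hr⟩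
    have h5 := congrArg Subtype.val h4
    rw [hφ] at h5
    exact h5
  -- two different conjugates
  obtain ⟨g, hg, hgs⟩ : ∃ g ∈ normalizer (V : Set G), g * s * g⁻¹ ≠ s := by
    by_contra hcon
    push Not at hcon
    have h1 : zpowers s ≤ V := by rwa [zpowers_le]
    rcases H.irr (zpowers s) h1 (by
      intro g hg w hw
      obtain ⟨k, rfl⟩ := mem_zpowers_iff.1 hw
      rw [← conj_zpow, hcon g hg]
      exact hw) with h2 | h2
    · rw [zpowers_eq_bot] at h2
      exact hs1 h2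
    · have h3 := H.card
      rw [← h2, Nat.card_zpowers] at h3
      have h4 : orderOf s ∣ 2 := orderOf_dvd_of_pow_eq_one (by rw [pow_two, H.sq s hs])
      have h5 := Nat.le_of_dvd (by norm_num) h4
      have h6 : 2 ^ 2 ≤ 2 ^ n := Nat.pow_le_pow_right (by norm_num) H.two_le
      omega
  -- the centraliser of `R` in `V`
  have hW : V ⊓ centralizer (R : Set G) = V := by
    rcases H.irr (V ⊓ centralizer (R : Set G)) inf_le_left (by
      intro g hg w hw
      refine ⟨conj_mem_V hg hw.1, mem_centralizer_iff.2 ?_⟩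
      have h1 := mem_centralizer_iff.1 hw.2
      intro r hr
      have h2 := h1 (g⁻¹ * r * g) (by
        have := hR.conj_mem _ hr g⁻¹
        rwa [inv_inv] at this)
      calc r * (g * w * g⁻¹) = g * ((g⁻¹ * r * g) * w) * g⁻¹ := by group
        _ = g * (w * (g⁻¹ * r * g)) * g⁻¹ := by rw [h2]
        _ = g * w * g⁻¹ * r := by group) with h | h
    · exfalso
      apply hgs
      have h1 : s⁻¹ * (g * s * g⁻¹) ∈ V ⊓ centralizer (R : Set G) := by
        refine ⟨V.mul_mem (V.inv_mem hs) (conj_mem_V hg hs), mem_centralizer_iff.2 ?_⟩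
        intro r hr
        have h2 := hinv g r hr
        have h3 := hinv 1 r⁻¹ (R.inv_mem hr)
        have h4 : s * r⁻¹ * s⁻¹ = r := by simpa using h3
        have h5 : (s⁻¹ * (g * s * g⁻¹)) * r * (s⁻¹ * (g * s * g⁻¹))⁻¹ = r := by
          calc (s⁻¹ * (g * s * g⁻¹)) * r * (s⁻¹ * (g * s * g⁻¹))⁻¹
              = s⁻¹ * ((g * s * g⁻¹) * r * (g * s * g⁻¹)⁻¹) * s := by group
            _ = s⁻¹ * r⁻¹ * s := by rw [h2]
            _ = s⁻¹ * (r⁻¹) * s⁻¹⁻¹ := by rw [inv_inv]
            _ = s * r⁻¹ * s⁻¹ := by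
              rw [inv_inv]
              have h6 : s⁻¹ = s := inv_eq_of_mul_eq_one_left (H.sq s hs)
              rw [h6]
            _ = r := h4
        rw [mul_inv_eq_iff_eq_mul] at h5
        exact h5.symm
      rw [h, mem_bot] at h1
      rw [inv_mul_eq_one] at h1
      exact h1.symm
    · exact h
  have hsR : s ∈ V ⊓ centralizer (R : Set G) := by rw [hW]; exact hs
  rw [eq_bot_iff]
  intro r hr
  rw [mem_bot]
  apply hC 1 r hr
  have h1 := mem_centralizer_iff.1 hsR.2 r hr
  simpa using h1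

end Cfsg.Agent.H338.Reduce
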