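import Cfsg.Agent.H338.Reduce
import Cfsg.Agent.Lib.Cores
import Cfsg.Agent.SporadicStructure.M24IndexAbs

/-!
# Local recognition: reduction to simple groups, main part (helper338)
-/

set_option autoImplicit false
open scoped Pointwise

namespace Cfsg.Agent.H338.Reduce

open Subgroup

variable {G : Type*} [Group G]

/-- A normal subgroup of even order meets a Sylow 2-subgroup. -/
theorem sylow_inf_ne_bot {X : Type*} [Group X] [Finite X] {p : ℕ} [Fact p.Prime] (P : Sylow p X)
    (T : Subgroup X) [hT : T.Normal] (h : p ∣ Nat.card T) : (P : Subgroup X) ⊓ T ≠ ⊥ := by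
  obtain ⟨t, ht⟩ := exists_prime_orderOf_dvd_card' (G := T) p h
  have ht' : orderOf (t : X) = p := by rw [← ht, Subgroup.orderOf_coe]
  have hpg : IsPGroup p (zpowers (t : X)) := by
    apply IsPGroup.of_card (n := 1)
    rw [Nat.card_zpowers, ht', pow_one]
  obtain ⟨Q, hQ⟩ := hpg.exists_le_sylow
  obtain ⟨g, hg⟩ := MulAction.exists_smul_eq X Q P
  intro hbot
  have h1 : (t : X) ∈ (Q : Subgroup X) := hQ (mem_zpowers _)
  have h2 : g * (t : X) * g⁻¹ ∈ (P : Subgroup X) ⊓ T := by
    refine ⟨?_, hT.conj_mem _ t.2 g⟩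
    rw [← hg]
    exact ⟨t, h1, rfl⟩
  rw [hbot, mem_bot] at h2
  have h3 : (t : X) = 1 := by
    calc (t : X) = g⁻¹ * (g * t * g⁻¹) * g := by group
      _ = 1 := by rw [h2]; group
  rw [h3, orderOf_one] at ht'
  exact (Fact.out : p.Prime).one_lt.ne ht'

/-- Independent families in an elementary abelian 2-group. -/
theorem card_indep_le [Finite G] {V : Subgroup G} {n : ℕ} (hsq : ∀ v ∈ V, v * v = 1)
    (hcard : Nat.card V = 2 ^ n) {I : Set (Subgroup G)} (hI : sSupIndep I)
    (hV : ∀ T ∈ I, V ⊓ T ≠ ⊥) : I.ncard ≤ n := by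
  classical
  have hcomm : ∀ a b : V, a * b = b * a := by
    intro a b
    apply Subtype.ext
    have h1 := hsq _ (V.mul_mem a.2 b.2)
    have h2 := hsq a a.2
    have h3 := hsq b b.2
    show (a : G) * b = b * a
    calc (a : G) * b = (a * b)⁻¹ := eq_inv_of_mul_eq_one_left h1
      _ = (b : G)⁻¹ * (a : G)⁻¹ := mul_inv_rev _ _
      _ = b * a := by rw [inv_eq_of_mul_eq_one_left h2, inv_eq_of_mul_eq_one_left h3]
  let inst : CommGroup V := { (inferInstance : Group V) with mul_comm := hcomm }
  have hex : ∀ T : I, ∃ v : V, v ≠ 1 ∧ (v : G) ∈ (T : Subgroup G) := by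
    intro T
    obtain ⟨v, hv⟩ := Subgroup.ne_bot_iff_exists_ne_one.1 (hV T T.2)
    have h0 : (v : G) ≠ 1 := fun h => hv (Subtype.ext h)
    exact ⟨⟨v, v.2.1⟩, fun h => h0 (congrArg (fun z : V => (z : G)) h), v.2.2⟩
  choose w hw hwT using hex
  have hw2 : ∀ T, w T * w T = 1 := fun T => Subtype.ext (hsq _ (w T).2)
  have : Fintype I := Fintype.ofFinite I
  let f : Finset I → V := fun S => ∏ T ∈ S, w T
  have hf2 : ∀ S, f S * f S = 1 := fun S => by
    show (∏ T ∈ S, w T) * ∏ T ∈ S, w T = 1
    rw [← Finset.prod_mul_distrib]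
    exact Finset.prod_eq_one fun T _ => hw2 T
  -- products over subsets avoiding `T`
  have hmem : ∀ (T : I) (S : Finset I), T ∉ S → ((f S : V) : G) ∈ sSup (I \ {(T : Subgroup G)}) := by
    intro T S hTS
    induction S using Finset.induction_on with
    | empty => exact one_mem _
    | insert T' S hT' ih =>
      have h1 : f (insert T' S) = w T' * f S := Finset.prod_insert hT'
      rw [h1]
      rw [Finset.mem_insert, not_or] at hTS
      refine mul_mem ?_ (ih hTS.2)
      exact (le_sSup (show (T' : Subgroup G) ∈ I \ {(T : Subgroup G)} from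
        ⟨T'.2, fun h => hTS.1 (Subtype.ext h).symm⟩)) (hwT T')
  have hne : ∀ S : Finset I, S.Nonempty → f S ≠ 1 := by
    rintro S ⟨T, hT⟩ h
    have h1 : w T * f (S.erase T) = f S := Finset.mul_prod_erase S w hT
    rw [h] at h1
    have h2 : w T = f (S.erase T) := by
      have h3 := hf2 (S.erase T)
      exact mul_right_cancel (h1.trans h3.symm)
    have h3 := hmem T (S.erase T) (Finset.notMem_erase T S)
    have h4 : (w T : G) ∈ (T : Subgroup G) ⊓ sSup (I \ {(T : Subgroup G)}) := by
      refine ⟨hwT T, ?_⟩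
      rw [h2]
      exact h3
    have h5 := (hI T.2).eq_bot
    rw [h5, mem_bot] at h4
    exact hw T (Subtype.ext h4)
  have hmul : ∀ S T : Finset I, f (symmDiff S T) = f S * f T := by
    intro S T
    have h1 : f S = (∏ i ∈ S \ T, w i) * ∏ i ∈ S ∩ T, w i := by
      show ∏ i ∈ S, w i = _
      rw [← Finset.prod_union (Finset.disjoint_sdiff_inter S T), Finset.sdiff_union_inter]
    have h2 : f T = (∏ i ∈ T \ S, w i) * ∏ i ∈ S ∩ T, w i := by
      show ∏ i ∈ T, w i = _
      rw [Finset.inter_comm, ← Finset.prod_union (Finset.disjoint_sdiff_inter T S),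
        Finset.sdiff_union_inter]
    have h3 : f (symmDiff S T) = (∏ i ∈ S \ T, w i) * ∏ i ∈ T \ S, w i := by
      show ∏ i ∈ symmDiff S T, w i = _
      rw [symmDiff_def, Finset.sup_eq_union, Finset.prod_union disjoint_sdiff_sdiff]
    rw [h3, h1, h2, mul_mul_mul_comm, ← Finset.prod_mul_distrib (s := S ∩ T),
      Finset.prod_eq_one (s := S ∩ T) (fun i _ => hw2 i), mul_one]
  have hinj : Function.Injective f := by
    intro S T hST
    by_contra hne'
    have h1 : (symmDiff S T).Nonempty := by
      rw [Finset.nonempty_iff_ne_empty]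
      intro h
      exact hne' (symmDiff_eq_bot.1 h)
    apply hne _ h1
    rw [hmul, hST, hf2]
  have h1 := Nat.card_le_card_of_injective f hinj
  rw [hcard, Nat.card_eq_fintype_card (α := Finset I), Fintype.card_finset,
    ← Nat.card_eq_fintype_card] at h1
  have h2 : I.ncard = Nat.card I := rfl
  rw [h2]
  exact (Nat.pow_le_pow_iff_right (by norm_num)).1 h1

/-- Burnside: a self-normalising abelian 2-subgroup in a simple group. -/
theorem burnside {X : Type*} [Group X] [Finite X] [IsSimpleGroup X] {n : ℕ} (W : Subgroup X)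
    (hsq : ∀ v ∈ W, v * v = 1) (hcard : Nat.card W = 2 ^ n) (hW : W ≠ ⊥)
    (hna : ¬ ∀ x y : X, Commute x y) (hnorm : normalizer (W : Set X) ≤ W) : False := by
  have : Fact (Nat.Prime 2) := ⟨Nat.prime_two⟩
  have hcomm : ∀ a ∈ W, ∀ b ∈ W, a * b = b * a := by
    intro a ha b hb
    have h1 := hsq _ (W.mul_mem ha hb)
    have h2 := hsq a ha
    have h3 := hsq b hb
    calc a * b = (a * b)⁻¹ := eq_inv_of_mul_eq_one_left h1
      _ = b⁻¹ * a⁻¹ := mul_inv_rev _ _
      _ = b * a := by rw [inv_eq_of_mul_eq_one_left h2, inv_eq_of_mul_eq_one_left h3]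
  have hnot : ¬ 2 ∣ W.index := by
    have h1 := Sylow.card_quotient_normalizer_modEq_card_quotient hcard
    have h2 : normalizer (W : Set X) = W := le_antisymm hnorm le_normalizer
    have h3 : Nat.card (normalizer (W : Set X) ⧸ W.comap (normalizer (W : Set X)).subtype) = 1 := by
      have h4 : W.comap (normalizer (W : Set X)).subtype = ⊤ := by
        rw [eq_top_iff]
        intro x _
        exact hnorm x.2
      rw [← Subgroup.index, h4, Subgroup.index_top]
    rw [h3] at h1
    intro h4
    rw [← Subgroup.index] at h1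
    unfold Nat.ModEq at h1
    omega
  let P : Sylow 2 X := (IsPGroup.of_card hcard).toSylow hnot
  have hP : normalizer ((P : Subgroup X) : Set X) ≤ centralizer ((P : Subgroup X) : Set X) := by
    intro x hx
    rw [mem_centralizer_iff]
    intro w hw
    exact (hcomm x (hnorm hx) w hw).symm
  have h1 := MonoidHom.ker_transferSylow_isComplement' P hP
  rcases (inferInstance : (MonoidHom.transferSylow P hP).ker.Normal).eq_bot_or_eq_top with h | h
  · rw [h] at h1
    have h2 : (P : Subgroup X) = ⊤ := isComplement'_bot_left.1 h1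
    apply hna
    intro x y
    have hx : x ∈ (P : Subgroup X) := by rw [h2]; trivial
    have hy : y ∈ (P : Subgroup X) := by rw [h2]; trivial
    exact hcomm x hx y hy
  · rw [h] at h1
    exact hW (isComplement'_top_left.1 h1)

open Cfsg.Agent.Lib.MinNormal Cfsg.Agent.Lib.MinNormalNonabelian

variable {V : Subgroup G} {n p : ℕ}

/-- **The reduction.** -/
theorem Loc.reduce [Finite G] (H : Loc V n p) : V.Normal ∨ ∃ K : Subgroup G, K.Normal ∧
    IsSimpleGroup K ∧ (¬ ∀ x ∈ K, ∀ y ∈ K, Commute x y) ∧ normalizer (V : Set G) ≤ K ∧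
    ∀ g : G, (∀ k ∈ K, g * k = k * g) → g = 1 := by
  classical
  have : Fact (Nat.Prime 2) := ⟨Nat.prime_two⟩
  have : Fact p.Prime := ⟨H.prime⟩
  have hVne := H.ne_bot
  have : Nontrivial G := by
    obtain ⟨v, hv⟩ := Subgroup.ne_bot_iff_exists_ne_one.1 hVne
    exact ⟨⟨v, 1, fun h => hv (Subtype.ext h)⟩⟩
  obtain ⟨M, hMn, hMne, hmin⟩ := Cfsg.Agent.Lib.SubnormalJoin.exists_minimal_normal G
  have hM2 : 2 ∣ Nat.card M := by
    by_contra h
    exact hMne (H.no_odd M hMn (Nat.Coprime.symm ((Nat.Prime.coprime_iff_not_dvd Nat.prime_two).2 h)))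
  -- `V` meets every subgroup of even order normalised by `V`, inside a suitable group
  have hmeet : ∀ X T : Subgroup G, V ≤ X → T ≤ X → (∀ g ∈ X, ∀ t ∈ T, g * t * g⁻¹ ∈ T) →
      2 ∣ Nat.card T → V ⊓ T ≠ ⊥ := by
    intro X T hVX hTX hXT h2
    have hTn : (T.subgroupOf X).Normal := ⟨fun t ht g => hXT g g.2 t ht⟩
    have hT2 : 2 ∣ Nat.card (T.subgroupOf X) := by
      rw [Nat.card_congr (Subgroup.subgroupOfEquivOfLe hTX).toEquiv]
      exact h2
    have hV2 : IsPGroup 2 (V.subgroupOf X) := by
      apply IsPGroup.of_card (n := n)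
      rw [Nat.card_congr (Subgroup.subgroupOfEquivOfLe hVX).toEquiv, H.card]
    obtain ⟨P, hP⟩ := hV2.exists_le_sylow
    have h3 := sylow_inf_ne_bot P (T.subgroupOf X) hT2
    obtain ⟨w, hw, hw1, hwc⟩ := exists_fixed (V.subgroupOf X) ((P : Subgroup X) ⊓ T.subgroupOf X)
      hV2 h3 (P.2.to_le inf_le_left) (by
        intro x hx w hw
        exact ⟨(P : Subgroup X).mul_mem ((P : Subgroup X).mul_mem (hP hx) hw.1)
          ((P : Subgroup X).inv_mem (hP hx)), hTn.conj_mem _ hw.2 x⟩)
    have hwV : (w : G) ∈ V := by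
      apply H.cent
      intro v hv
      exact (congrArg Subtype.val (hwc ⟨v, hVX hv⟩ hv)).symm
    intro hbot
    have h4 : (w : G) ∈ V ⊓ T := ⟨hwV, hw.2⟩
    rw [hbot, mem_bot] at h4
    exact hw1 (Subtype.ext h4)
  -- `V ≤ M`
  have hVM : V ≤ M := by
    have h1 := hmeet ⊤ M le_top le_top (fun g _ t ht => hMn.conj_mem t ht g) hM2
    rcases H.irr (V ⊓ M) inf_le_left (fun g hg w hw =>
      ⟨conj_mem_V hg hw.1, hMn.conj_mem _ hw.2 g⟩) with h | h
    · exact absurd h h1
    · rw [← h]; exact inf_le_right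
  by_cases hab : ∀ x ∈ M, ∀ y ∈ M, Commute x y
  · left
    have h1 : M ≤ V := by
      intro m hm
      apply H.cent
      intro v hv
      exact (hab m hm v (hVM hv)).eq
    have h2 : M = V := le_antisymm h1 hVM
    rw [← h2]
    exact hMn
  right
  have := hMn
  obtain ⟨hne, hsI, hsup, hsimp, hcen, htrans⟩ := nonabelian_structure M hmin hab
  -- the order of the factors is even
  have hT2 : ∀ T ∈ minSet M, 2 ∣ Nat.card T := by
    intro T hT
    by_contra h
    have hodd : (Nat.card T).Coprime 2 :=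
      Nat.Coprime.symm ((Nat.Prime.coprime_iff_not_dvd Nat.prime_two).2 h)
    have hTn : (T.subgroupOf M).Normal := by
      refine ⟨fun t ht g => ?_⟩
      exact (mem_normalizer_iff.1 (hT.2.2.1 g.2) t).1 ht
    have h1 : T.subgroupOf M ≤ Cfsg.pPrimeCore 2 M := by
      apply Cfsg.Agent.Lib.Cores.le_pPrimeCore hTn
      rw [Nat.card_congr (Subgroup.subgroupOfEquivOfLe hT.1).toEquiv]
      exact hodd
    have h2 := Cfsg.Agent.Lib.Cores.map_subtype_pPrimeCore 2 hMn
    have h3 : Cfsg.pPrimeCore 2 G = ⊥ := H.no_odd _ (Cfsg.Agent.Lib.Cores.pPrimeCore_normal 2)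
      (Cfsg.Agent.Lib.Cores.pPrimeCore_coprime 2)
    rw [h3, inf_bot_eq, Subgroup.map_eq_bot_iff_of_injective _ M.subtype_injective] at h2
    rw [h2, le_bot_iff, Subgroup.subgroupOf_eq_bot, disjoint_iff, inf_eq_left.2 hT.1] at h1
    exact hT.2.1 h1
  have hVT : ∀ T ∈ minSet M, V ⊓ T ≠ ⊥ := fun T hT =>
    hmeet M T hVM hT.1 (fun g hg t ht => (mem_normalizer_iff.1 (hT.2.2.1 hg) t).1 ht) (hT2 T hT)
  have hcount := card_indep_le H.sq H.card hsI hVT
  -- the kernel of the action of `N` on the factors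
  let D : Subgroup G :=
    { carrier := {g | g ∈ normalizer (V : Set G) ∧ ∀ T ∈ minSet M, ∀ t, t ∈ T ↔ g * t * g⁻¹ ∈ T}
      one_mem' := ⟨one_mem _, fun T _ t => by simp⟩
      mul_mem' := by
        rintro a b ⟨ha, ha'⟩ ⟨hb, hb'⟩
        refine ⟨mul_mem ha hb, fun T hT t => ?_⟩
        rw [hb' T hT t, ha' T hT]
        have : a * (b * t * b⁻¹) * a⁻¹ = a * b * t * (a * b)⁻¹ := by group
        rw [this]
      inv_mem' := by
        rintro a ⟨ha, ha'⟩
        refine ⟨inv_mem ha, fun T hT t => ?_⟩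
        rw [ha' T hT (a⁻¹ * t * a⁻¹⁻¹)]
        have : a * (a⁻¹ * t * a⁻¹⁻¹) * a⁻¹ = t := by group
        rw [this] }
  have hVD : V ≤ D := fun v hv => ⟨H.le hv, fun T hT t => mem_normalizer_iff.1 (hT.2.2.1 (hVM hv)) t⟩
  have hconj : ∀ (g : G) (T : Subgroup G), T ∈ minSet M →
      T.map (MulAut.conj g).toMonoidHom ∈ minSet M := fun g T hT => map_conj_mem_minSet hT g
  have hDN : D = normalizer (V : Set G) := by
    rcases H.simple D hVD (fun g hg => hg.1) (by
      rintro g hg d ⟨hd, hd'⟩
      refine ⟨mul_mem (mul_mem hg hd) (inv_mem hg), fun T hT t => ?_⟩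
      have h1 := hd' _ (hconj g⁻¹ T hT) (g⁻¹ * t * g)
      have h2 : ∀ z : G, z ∈ T.map (MulAut.conj g⁻¹).toMonoidHom ↔ g * z * g⁻¹ ∈ T := by
        intro z
        constructor
        · rintro ⟨w, hw, rfl⟩
          have : g * ((MulAut.conj g⁻¹).toMonoidHom w) * g⁻¹ = w := by
            show g * (g⁻¹ * w * g⁻¹⁻¹) * g⁻¹ = w
            group
          rw [this]; exact hw
        · intro hz
          refine ⟨_, hz, ?_⟩
          show g⁻¹ * (g * z * g⁻¹) * g⁻¹⁻¹ = z
          group
      rw [h2, h2] at h1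
      have e1 : g * (g⁻¹ * t * g) * g⁻¹ = t := by group
      have e2 : g * (d * (g⁻¹ * t * g) * d⁻¹) * g⁻¹ = g * d * g⁻¹ * t * (g * d * g⁻¹)⁻¹ := by group
      rw [e1, e2] at h1
      exact h1) with h | h
    · exfalso
      obtain ⟨y, hy, hyo⟩ := H.y
      have hyD : y ∈ D := by
        refine ⟨hy, fun T hT t => ?_⟩
        let s : Finset (Subgroup G) := (Set.toFinite (minSet M)).toFinset
        have hs : s.card = (minSet M).ncard := by
          rw [Set.ncard_eq_toFinset_card _ (Set.toFinite _)]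
        have h1 : (MulAut.conj y) ^ p = 1 := by
          rw [← map_pow, ← hyo, pow_orderOf_eq_one, map_one]
        have h2 := Cfsg.Agent.SporadicStructure.M24IndexAbs.smul_eq_of_card_lt (α := Subgroup G)
          (g := MulAut.conj y) h1 s (by
            intro T hT
            rw [Set.Finite.mem_toFinset] at hT ⊢
            exact hconj y T hT) (by
            rw [hs]
            exact lt_of_le_of_lt hcount H.lt) T (by
            rw [Set.Finite.mem_toFinset]; exact hT)
        constructor
        · intro ht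
          rw [← h2]
          exact ⟨t, ht, rfl⟩
        · intro ht
          rw [← h2] at ht
          obtain ⟨w, hw, hwt⟩ := ht
          have h3 : y * w * y⁻¹ = y * t * y⁻¹ := hwt
          have h4 : w = t := by
            have := mul_right_cancel h3
            exact mul_left_cancel this
          rw [← h4]; exact hw
      rw [h] at hyD
      have h3 := H.sq y hyD
      have h4 : orderOf y ∣ 2 := orderOf_dvd_of_pow_eq_one (by rw [pow_two, h3])
      rw [hyo] at h4
      have h5 := Nat.le_of_dvd (by norm_num) h4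
      have h6 := H.two_le
      have h7 := H.lt
      omega
    · exact h
  -- `V` lies in every factor
  have hVle : ∀ T ∈ minSet M, V ≤ T := by
    intro T hT
    rcases H.irr (V ⊓ T) inf_le_left (by
      intro g hg w hw
      refine ⟨conj_mem_V hg hw.1, ?_⟩
      have h1 : g ∈ D := by rw [hDN]; exact hg
      exact (h1.2 T hT w).1 hw.2) with h | h
    · exact absurd h (hVT T hT)
    · rw [← h]; exact inf_le_right
  obtain ⟨T, hT⟩ := hne
  have huniq : ∀ S ∈ minSet M, S = T := by
    intro S hS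
    by_contra hST
    have h1 := hsI.pairwiseDisjoint hS hT hST
    apply hVne
    rw [eq_bot_iff]
    exact h1 (hVle S hS) (hVle T hT)
  have hMT : M = T := by
    rw [← hsup]
    apply le_antisymm
    · exact sSup_le fun S hS => (huniq S hS).le
    · exact le_sSup hT
  have hMs : IsSimpleGroup M := by rw [hMT]; exact hsimp T hT
  -- `N ≤ M`
  have hNM : normalizer (V : Set G) ≤ M := by
    rcases H.simple (normalizer (V : Set G) ⊓ M) (le_inf H.le hVM) inf_le_left (by
      intro g hg m hm
      exact ⟨(normalizer (V : Set G)).mul_mem ((normalizer (V : Set G)).mul_mem hg hm.1)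
        ((normalizer (V : Set G)).inv_mem hg), hMn.conj_mem _ hm.2 g⟩) with h | h
    · exfalso
      apply burnside (X := M) (n := n) (V.subgroupOf M)
      · intro v hv
        exact Subtype.ext (H.sq _ hv)
      · rw [Nat.card_congr (Subgroup.subgroupOfEquivOfLe hVM).toEquiv, H.card]
      · intro h1
        rw [Subgroup.subgroupOf_eq_bot, disjoint_iff, inf_eq_left.2 hVM] at h1
        exact hVne h1
      · intro h1
        apply hab
        intro x hx y hy
        exact congrArg Subtype.val (h1 ⟨x, hx⟩ ⟨y, hy⟩).eq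
      · intro x hx
        show (x : G) ∈ V
        rw [← h]
        refine ⟨?_, x.2⟩
        show (x : G) ∈ normalizer (V : Set G)
        rw [mem_normalizer_iff] at hx ⊢
        intro v
        constructor
        · intro hv
          exact (hx ⟨v, hVM hv⟩).1 hv
        · intro hv
          have hvM : v ∈ M := by
            have h2 := M.mul_mem (M.mul_mem (M.inv_mem x.2) (hVM hv)) x.2
            have h3 : (x : G)⁻¹ * (x * v * (x : G)⁻¹) * x = v := by group
            rwa [h3] at h2
          exact (hx ⟨v, hvM⟩).2 hv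
    · rw [← h]; exact inf_le_right
  refine ⟨M, hMn, hMs, hab, hNM, ?_⟩
  intro g hg
  have h1 : g ∈ V := H.cent g (fun v hv => hg v (hVM hv))
  have h2 := hcen T hT g (by rw [← hMT]; exact hVM h1) (fun t ht => hg t (by rw [hMT]; exact ht))
  exact h2

end Cfsg.Agent.H338.Reduce
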