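import Cfsg.Agent.H338.Dual2

/-!
# Weight idempotents of an elementary abelian 2-group (helper338)
-/

set_option autoImplicit false

namespace Cfsg.Agent.H338.Weights

open Cfsg.Agent.H338.Dual2

variable {F R E : Type*} [Field F] [Ring R] [Algebra F R] [CommGroup E] [Finite E] [Fintype E]

/-- The idempotent of a weight. -/
noncomputable def P (F : Type*) {R E : Type*} [Field F] [Ring R] [Algebra F R] [CommGroup E]
    [Fintype E] (ρ : E →* R) (l : Dl E) : R :=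
  ((Nat.card E : ℕ) : F)⁻¹ • ∑ e : E, ((l e : ℤˣ) : ℤ) • ρ e

omit [Fintype E] in
theorem card_ne_zero (h2 : (2 : F) ≠ 0) (hsq : ∀ e : E, e * e = 1) : ((Nat.card E : ℕ) : F) ≠ 0 := by
  have : Fact (Nat.Prime 2) := ⟨Nat.prime_two⟩
  have h1 : IsPGroup 2 E := fun e => ⟨1, by rw [pow_one, pow_two, hsq]⟩
  obtain ⟨n, hn⟩ := IsPGroup.iff_card.1 h1
  rw [hn]
  push_cast
  exact pow_ne_zero n h2

theorem unit_sq' (u : ℤˣ) : ((u : ℤˣ) : ℤ) * ((u : ℤˣ) : ℤ) = 1 := by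
  rw [← Units.val_mul, unit_sq, Units.val_one]

omit [Finite E] in
theorem rho_mul_P (ρ : E →* R) (l : Dl E) (e : E) :
    ρ e * P F ρ l = ((l e : ℤˣ) : ℤ) • P F ρ l := by
  unfold P
  rw [mul_smul_comm, Finset.mul_sum, smul_comm (((l e : ℤˣ) : ℤ))]
  congr 1
  rw [Finset.smul_sum]
  refine Fintype.sum_equiv (Equiv.mulLeft e) (fun x => ρ e * (((l x : ℤˣ) : ℤ) • ρ x))
    (fun x => ((l e : ℤˣ) : ℤ) • (((l x : ℤˣ) : ℤ) • ρ x)) fun x => ?_
  show ρ e * (((l x : ℤˣ) : ℤ) • ρ x) = ((l e : ℤˣ) : ℤ) • (((l (e * x) : ℤˣ) : ℤ) • ρ (e * x))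
  rw [mul_smul_comm, map_mul, map_mul, smul_smul]
  congr 1
  rw [Units.val_mul, ← mul_assoc, unit_sq', one_mul]

omit [Finite E] in
theorem P_mul_rho (ρ : E →* R) (l : Dl E) (e : E) :
    P F ρ l * ρ e = ((l e : ℤˣ) : ℤ) • P F ρ l := by
  unfold P
  rw [smul_mul_assoc, Finset.sum_mul, smul_comm (((l e : ℤˣ) : ℤ))]
  congr 1
  rw [Finset.smul_sum]
  refine Fintype.sum_equiv (Equiv.mulRight e) (fun x => (((l x : ℤˣ) : ℤ) • ρ x) * ρ e)
    (fun x => ((l e : ℤˣ) : ℤ) • (((l x : ℤˣ) : ℤ) • ρ x)) fun x => ?_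
  show (((l x : ℤˣ) : ℤ) • ρ x) * ρ e = ((l e : ℤˣ) : ℤ) • (((l (x * e) : ℤˣ) : ℤ) • ρ (x * e))
  rw [smul_mul_assoc, map_mul, map_mul, smul_smul]
  congr 1
  rw [Units.val_mul, mul_comm ((l x : ℤˣ) : ℤ), ← mul_assoc, unit_sq', one_mul]

omit [Finite E] in
theorem sum_char (l : Dl E) (hl : l ≠ 1) :
    ∑ e : E, ((l e : ℤˣ) : ℤ) = 0 := by
  obtain ⟨e0, he0⟩ : ∃ e0, l e0 ≠ 1 := by
    by_contra hcon
    push Not at hcon
    exact hl (Dl.ext hcon)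
  have h0 : l e0 = -1 := (Int.units_eq_one_or (l e0)).resolve_left he0
  have h : ∑ e : E, ((l e : ℤˣ) : ℤ) = ∑ e : E, ((l (e0 * e) : ℤˣ) : ℤ) :=
    (Fintype.sum_equiv (Equiv.mulLeft e0) _ _ fun e => rfl).symm
  have h2 : ∑ e : E, ((l (e0 * e) : ℤˣ) : ℤ) = - ∑ e : E, ((l e : ℤˣ) : ℤ) := by
    rw [← Finset.sum_neg_distrib]
    apply Finset.sum_congr rfl
    intro e _
    rw [map_mul, h0]
    simp
  rw [h2] at h
  omega

theorem P_mul_P_same (h2 : (2 : F) ≠ 0) (hsq : ∀ e : E, e * e = 1) (ρ : E →* R) (l : Dl E) :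
    P F ρ l * P F ρ l = P F ρ l := by
  have hc := card_ne_zero (F := F) h2 hsq
  conv_lhs => enter [1]; rw [P]
  rw [smul_mul_assoc, Finset.sum_mul]
  have h1 : ∀ e ∈ (Finset.univ : Finset E), (((l e : ℤˣ) : ℤ) • ρ e) * P F ρ l = P F ρ l := by
    intro e _
    rw [smul_mul_assoc, rho_mul_P, smul_smul, unit_sq', one_smul]
  rw [Finset.sum_congr rfl h1, Finset.sum_const, Finset.card_univ, ← Nat.card_eq_fintype_card,
    ← Nat.cast_smul_eq_nsmul F, smul_smul, inv_mul_cancel₀ hc, one_smul]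

omit [Finite E] in
theorem P_mul_P_ne (ρ : E →* R) {l m : Dl E}
    (hlm : l ≠ m) : P F ρ l * P F ρ m = 0 := by
  conv_lhs => enter [1]; rw [P]
  rw [smul_mul_assoc, Finset.sum_mul]
  have h1 : ∀ e ∈ (Finset.univ : Finset E), (((l e : ℤˣ) : ℤ) • ρ e) * P F ρ m =
      (((l * m) e : ℤˣ) : ℤ) • P F ρ m := by
    intro e _
    rw [smul_mul_assoc, rho_mul_P, smul_smul, dl_mul_apply, Units.val_mul]
  rw [Finset.sum_congr rfl h1, ← Finset.sum_smul, sum_char (l * m) (by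
    intro h
    apply hlm
    exact mul_right_cancel (h.trans (Dl.sq m).symm)), zero_smul, smul_zero]

theorem sum_P (h2 : (2 : F) ≠ 0) (hsq : ∀ e : E, e * e = 1) [Fintype (Dl E)] (ρ : E →* R) :
    ∑ l : Dl E, P F ρ l = 1 := by
  classical
  have hc := card_ne_zero (F := F) h2 hsq
  unfold P
  rw [← Finset.smul_sum, Finset.sum_comm]
  have h1 : ∀ e ∈ (Finset.univ : Finset E), ∑ l : Dl E, (((l e : ℤˣ) : ℤ) • ρ e) =
      if e = 1 then (Nat.card E : ℤ) • (1 : R) else 0 := by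
    intro e _
    rw [← Finset.sum_smul]
    by_cases he : e = 1
    · rw [if_pos he, he, sum_dual_one hsq, map_one]
    · rw [if_neg he, sum_dual hsq he, zero_smul]
  rw [Finset.sum_congr rfl h1, Finset.sum_ite_eq' Finset.univ (1 : E), if_pos (Finset.mem_univ _),
    natCast_zsmul, ← Nat.cast_smul_eq_nsmul F, smul_smul, inv_mul_cancel₀ hc, one_smul]

theorem rho_eq (h2 : (2 : F) ≠ 0) (hsq : ∀ e : E, e * e = 1) [Fintype (Dl E)] (ρ : E →* R)
    (e : E) : ρ e = ∑ l : Dl E, ((l e : ℤˣ) : ℤ) • P F ρ l := by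
  have h1 := sum_P (F := F) h2 hsq ρ
  calc ρ e = ρ e * ∑ l : Dl E, P F ρ l := by rw [h1, mul_one]
    _ = _ := by
      rw [Finset.mul_sum]
      exact Finset.sum_congr rfl fun l _ => rho_mul_P ρ l e

omit [Finite E] in
/-- Conjugation. -/
theorem conj_P (ρ : E →* R) (l : Dl E) (σ : E ≃* E) (y z : R)
    (h : ∀ e, y * ρ e = ρ (σ e) * y) :
    y * P F ρ l * z = P F ρ (MonoidHom.comp (l : E →* ℤˣ) σ.symm.toMonoidHom) * (y * z) := by
  unfold P
  rw [mul_smul_comm, smul_mul_assoc, smul_mul_assoc, Finset.mul_sum, Finset.sum_mul,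
    Finset.sum_mul]
  congr 1
  refine Fintype.sum_equiv σ.toEquiv _ _ fun x => ?_
  show y * (((l x : ℤˣ) : ℤ) • ρ x) * z = (((l (σ.symm (σ x)) : ℤˣ) : ℤ) • ρ (σ x)) * (y * z)
  rw [σ.symm_apply_apply, mul_smul_comm, smul_mul_assoc, smul_mul_assoc, h, mul_assoc]

end Cfsg.Agent.H338.Weights
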