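import Cfsg.Agent.H338.CycId
import Cfsg.Agent.H338.Weights

/-!
# Elementary abelian 2-subgroups of groups of units (helper338)

`L ≤ I` groups of units of a ring in which 2 is invertible, `π : L →* K` with central kernel, `V` an
elementary abelian subgroup of `K` with commuting lifts, `y` an element of prime order `p` acting
fixed point freely on `V`.  If `I` is closed (isometry group) then `2^(p-1) ≤ |C(V)|`.
-/

set_option autoImplicit false

namespace Cfsg.Agent.H338.RingCL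

open Cfsg.Agent.H338.Dual2 Cfsg.Agent.H338.Weights Cfsg.Agent.H338.CycId

/-- The closure property. -/
def Closed {R : Type*} [Ring R] (I : Subgroup Rˣ) : Prop :=
  ∀ E : Set Rˣ, (∀ e ∈ E, e ∈ I ∧ e * e = 1) → ∀ u : Rˣ, u * u = 1 →
    (∀ A : AddSubgroup R, (∀ x, x + x ∈ A → x ∈ A) → (∀ e ∈ E, (e : R) ∈ A) → (u : R) ∈ A) → u ∈ I

theorem closed_top {R : Type*} [Ring R] : Closed (⊤ : Subgroup Rˣ) := fun _ _ _ _ _ => trivial

theorem mem_of_two_pow {R : Type*} [Ring R] {A : AddSubgroup R} (hA : ∀ x, x + x ∈ A → x ∈ A)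
    (n : ℕ) (x : R) (h : (2 ^ n) • x ∈ A) : x ∈ A := by
  induction n with
  | zero => simpa using h
  | succ n ih =>
    apply ih
    apply hA
    rw [← two_nsmul, smul_smul, ← pow_succ']
    exact h

theorem units_smul_mem {R : Type*} [Ring R] {A : AddSubgroup R} (u : ℤ) {x : R} (h : x ∈ A) :
    u • x ∈ A := A.zsmul_mem h u

theorem main {F R : Type*} [Field F] [Ring R] [Algebra F R] (h2 : (2 : F) ≠ 0)
    (I L : Subgroup Rˣ) [Finite L] (hI : Closed I) (hLI : L ≤ I)
    (hLn : ∀ g ∈ I, ∀ l ∈ L, g * l * g⁻¹ ∈ L)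
    {K : Type*} [Group K] [Finite K] (π : L →* K) (hπ : Function.Surjective π)
    (hker : ∀ x : L, π x = 1 → ∀ l : L, x * l = l * x)
    (V : Subgroup K) (hsq : ∀ v ∈ V, v * v = 1) (hV : V ≠ ⊥)
    {p : ℕ} (hp : p.Prime) (hp2 : p ≠ 2) (y : K) (hyp : y ^ p = 1)
    (hyV : ∀ v ∈ V, y * v * y⁻¹ ∈ V) (hfix : ∀ v ∈ V, y * v = v * y → v = 1)
    (hlift : ∀ a b : L, π a ∈ V → π b ∈ V → a * b = b * a) :
    2 ^ (p - 1) ≤ Nat.card (Subgroup.centralizer (V : Set K)) := by
  classical
  have : Fact p.Prime := ⟨hp⟩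
  obtain ⟨yh, hyh⟩ := hπ y
  have hVab : ∀ a ∈ V, ∀ b ∈ V, a * b = b * a := by
    intro a ha b hb
    have h1 := hsq _ (V.mul_mem ha hb)
    calc a * b = (a * b)⁻¹ := eq_inv_of_mul_eq_one_left h1
      _ = b⁻¹ * a⁻¹ := mul_inv_rev _ _
      _ = b * a := by
        rw [inv_eq_of_mul_eq_one_left (hsq a ha), inv_eq_of_mul_eq_one_left (hsq b hb)]
  -- every element of `V` is a commutator with `y`
  have hcomm : ∀ v ∈ V, ∃ w ∈ V, v = y * w * y⁻¹ * w⁻¹ := by
    let φ : V →* V :=
      { toFun := fun w => ⟨y * w * y⁻¹ * (w : K)⁻¹, V.mul_mem (hyV w w.2) (V.inv_mem w.2)⟩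
        map_one' := Subtype.ext (by
          show y * ((1 : V) : K) * y⁻¹ * ((1 : V) : K)⁻¹ = 1
          simp)
        map_mul' := fun a b => Subtype.ext (by
          show y * ((a * b : V) : K) * y⁻¹ * ((a * b : V) : K)⁻¹ =
            (y * a * y⁻¹ * (a : K)⁻¹) * (y * b * y⁻¹ * (b : K)⁻¹)
          have h3 := hVab _ (V.inv_mem a.2) _ (hyV b b.2)
          have h4 := hVab _ (V.inv_mem a.2) _ (V.inv_mem b.2)
          calc y * ((a * b : V) : K) * y⁻¹ * ((a * b : V) : K)⁻¹
              = (y * a * y⁻¹) * (y * b * y⁻¹) * ((b : K)⁻¹ * (a : K)⁻¹) := by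
                rw [Subgroup.coe_mul]; group
            _ = (y * a * y⁻¹) * (y * b * y⁻¹) * ((a : K)⁻¹ * (b : K)⁻¹) := by rw [h4]
            _ = (y * a * y⁻¹) * ((y * b * y⁻¹) * (a : K)⁻¹) * (b : K)⁻¹ := by group
            _ = (y * a * y⁻¹) * ((a : K)⁻¹ * (y * b * y⁻¹)) * (b : K)⁻¹ := by rw [h3]
            _ = _ := by group) }
    have hinj : Function.Injective φ := by
      rw [injective_iff_map_eq_one]
      intro w hw
      have h3 : y * w * y⁻¹ * (w : K)⁻¹ = 1 := congrArg Subtype.val hw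
      apply Subtype.ext
      apply hfix w w.2
      rw [mul_inv_eq_one, mul_inv_eq_iff_eq_mul] at h3
      exact h3
    have hsurj := Finite.surjective_of_injective hinj
    intro v hv
    obtain ⟨w, hw⟩ := hsurj ⟨v, hv⟩
    exact ⟨w, w.2, (congrArg Subtype.val hw).symm⟩
  -- the group `E`
  let E : Subgroup L :=
    { carrier := {e | π e ∈ V ∧ e * e = 1}
      one_mem' := ⟨by rw [map_one]; exact one_mem _, by rw [one_mul]⟩
      mul_mem' := by
        rintro a b ⟨ha, ha'⟩ ⟨hb, hb'⟩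
        refine ⟨by rw [map_mul]; exact V.mul_mem ha hb, ?_⟩
        have h3 := hlift b a hb ha
        calc a * b * (a * b) = a * (b * a) * b := by group
          _ = a * (a * b) * b := by rw [h3]
          _ = (a * a) * (b * b) := by group
          _ = 1 := by rw [ha', hb', one_mul]
      inv_mem' := by
        rintro a ⟨ha, ha'⟩
        refine ⟨by rw [map_inv]; exact V.inv_mem ha, ?_⟩
        rw [← mul_inv_rev, ha', inv_one] }
  have hEmem : ∀ e : L, e ∈ E ↔ π e ∈ V ∧ e * e = 1 := fun e => Iff.rfl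
  -- `π` maps `E` onto `V`
  have hEV : ∀ v ∈ V, ∃ e ∈ E, π e = v := by
    intro v hv
    obtain ⟨w, hw, rfl⟩ := hcomm v hv
    obtain ⟨wh, hwh⟩ := hπ w
    have hwV : π wh ∈ V := by rw [hwh]; exact hw
    have hcw : π (yh * wh * yh⁻¹) ∈ V := by
      rw [map_mul, map_mul, map_inv, hyh, hwh]
      exact hyV w hw
    have h3 : π (yh * wh * yh⁻¹ * wh⁻¹) = y * w * y⁻¹ * w⁻¹ := by
      rw [map_mul, map_mul, map_mul, map_inv, map_inv, hyh, hwh]
    refine ⟨yh * wh * yh⁻¹ * wh⁻¹, ⟨by rw [h3]; exact hv, ?_⟩, h3⟩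
    have h4 := hlift wh⁻¹ (yh * wh * yh⁻¹) (by rw [map_inv]; exact V.inv_mem hwV) hcw
    have h5 : π (wh * wh) = 1 := by rw [map_mul, hwh, hsq w hw]
    have h6 := hker _ h5 yh
    calc yh * wh * yh⁻¹ * wh⁻¹ * (yh * wh * yh⁻¹ * wh⁻¹)
        = (yh * wh * yh⁻¹) * (wh⁻¹ * (yh * wh * yh⁻¹)) * wh⁻¹ := by group
      _ = (yh * wh * yh⁻¹) * ((yh * wh * yh⁻¹) * wh⁻¹) * wh⁻¹ := by rw [h4]
      _ = yh * (wh * wh) * yh⁻¹ * (wh * wh)⁻¹ := by group
      _ = (wh * wh) * yh * yh⁻¹ * (wh * wh)⁻¹ := by rw [h6]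
      _ = 1 := by group
  let instE : CommGroup E :=
    { (inferInstance : Group E) with
      mul_comm := fun a b => Subtype.ext (hlift a b a.2.1 b.2.1) }
  have : Fintype E := Fintype.ofFinite E
  have : Fintype (Dl E) := Fintype.ofFinite _
  have hsqE : ∀ e : E, e * e = 1 := fun e => Subtype.ext e.2.2
  let ρ : E →* R := (Units.coeHom R).comp (L.subtype.comp E.subtype)
  have hρ : ∀ e : E, ρ e = (((e : L) : Rˣ) : R) := fun e => rfl
  -- conjugation by `yh`
  have hconjE : ∀ e ∈ E, yh * e * yh⁻¹ ∈ E := by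
    rintro e ⟨he, he'⟩
    refine ⟨?_, ?_⟩
    · rw [map_mul, map_mul, map_inv, hyh]
      exact hyV _ he
    · calc yh * e * yh⁻¹ * (yh * e * yh⁻¹) = yh * (e * e) * yh⁻¹ := by group
        _ = 1 := by rw [he']; group
  have hconjE' : ∀ e ∈ E, yh⁻¹ * e * yh ∈ E := by
    rintro e ⟨he, he'⟩
    refine ⟨?_, ?_⟩
    · obtain ⟨n, hn⟩ : ∃ n : ℕ, y⁻¹ = y ^ n := by
        refine ⟨p - 1, ?_⟩
        rw [inv_eq_iff_mul_eq_one, ← pow_succ', Nat.sub_add_cancel hp.one_le, hyp]
      have h3 : ∀ n : ℕ, ∀ v ∈ V, y ^ n * v * (y ^ n)⁻¹ ∈ V := by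
        intro n
        induction n with
        | zero => intro v hv; simpa using hv
        | succ n ih =>
          intro v hv
          have h4 := ih _ (hyV v hv)
          have h5 : y ^ n * (y * v * y⁻¹) * (y ^ n)⁻¹ = y ^ (n + 1) * v * (y ^ (n + 1))⁻¹ := by
            rw [pow_succ]; group
          rwa [h5] at h4
      rw [map_mul, map_mul, map_inv, hyh]
      have h4 := h3 n _ he
      rw [← hn, inv_inv] at h4
      exact h4
    · calc yh⁻¹ * e * yh * (yh⁻¹ * e * yh) = yh⁻¹ * (e * e) * yh := by group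
        _ = 1 := by rw [he']; group
  let σ : E ≃* E :=
    { toFun := fun e => ⟨yh * e * yh⁻¹, hconjE e e.2⟩
      invFun := fun e => ⟨yh⁻¹ * e * yh, hconjE' e e.2⟩
      left_inv := fun e => Subtype.ext (by
        show yh⁻¹ * (yh * (e : L) * yh⁻¹) * yh = e
        group)
      right_inv := fun e => Subtype.ext (by
        show yh * (yh⁻¹ * (e : L) * yh) * yh⁻¹ = e
        group)
      map_mul' := fun a b => Subtype.ext (by
        show yh * ((a * b : E) : L) * yh⁻¹ = (yh * a * yh⁻¹) * (yh * b * yh⁻¹)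
        rw [Subgroup.coe_mul]; group) }
  let Y : R := ((yh : Rˣ) : R)
  let Z : R := ((yh⁻¹ : L) : Rˣ)
  have hYZ : Y * Z = 1 := by
    show (((yh * yh⁻¹ : L) : Rˣ) : R) = 1
    rw [mul_inv_cancel]; rfl
  have hZY : Z * Y = 1 := by
    show (((yh⁻¹ * yh : L) : Rˣ) : R) = 1
    rw [inv_mul_cancel]; rfl
  have hYρ : ∀ e : E, Y * ρ e = ρ (σ e) * Y := by
    intro e
    show (((yh * e : L) : Rˣ) : R) = (((yh * e * yh⁻¹ * yh : L) : Rˣ) : R)
    rw [inv_mul_cancel_right]
  -- the action on weights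
  let τ : Dl E → Dl E := fun l => (MonoidHom.comp (l : E →* ℤˣ) σ.symm.toMonoidHom : E →* ℤˣ)
  have hτ : ∀ (l : Dl E) (e : E), (τ l) (σ e) = l e := by
    intro l e
    show l (σ.symm (σ e)) = l e
    rw [σ.symm_apply_apply]
  have hPτ : ∀ l : Dl E, Y * P F ρ l * Z = P F ρ (τ l) := by
    intro l
    rw [conj_P (F := F) ρ l σ Y Z hYρ, hYZ, mul_one]
  -- `σ ^ p = 1`
  have hcyc : ∀ e : E, (σ^[p]) e = e := by
    intro e
    have h3 : ∀ n : ℕ, (((σ^[n]) e : E) : L) = yh ^ n * e * (yh ^ n)⁻¹ := by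
      intro n
      induction n with
      | zero => simp
      | succ n ih =>
        rw [Function.iterate_succ_apply']
        show yh * (((σ^[n]) e : E) : L) * yh⁻¹ = _
        rw [ih, pow_succ']
        group
    apply Subtype.ext
    rw [h3]
    have h4 : π (yh ^ p) = 1 := by rw [map_pow, hyh, hyp]
    rw [hker _ h4 e, mul_inv_cancel_right]
  have hτp : ∀ l : Dl E, (τ^[p]) l = l := by
    intro l
    have h3 : ∀ n : ℕ, ∀ e : E, ((τ^[n]) l) ((σ^[n]) e) = l e := by
      intro n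
      induction n with
      | zero => intro e; rfl
      | succ n ih =>
        intro e
        rw [Function.iterate_succ_apply', Function.iterate_succ_apply', hτ, ih]
    apply Dl.ext
    intro e
    have h4 := h3 p e
    rwa [hcyc] at h4
  -- a moved weight
  obtain ⟨l, hl, hlτ⟩ : ∃ l : Dl E, P F ρ l ≠ 0 ∧ τ l ≠ l := by
    by_contra hcon
    push Not at hcon
    apply hV
    rw [eq_bot_iff]
    intro v hv
    rw [Subgroup.mem_bot]
    obtain ⟨e, he, rfl⟩ := hEV v hv
    apply hfix _ hv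
    have h3 : ρ (σ ⟨e, he⟩) = ρ ⟨e, he⟩ := by
      rw [rho_eq (F := F) h2 hsqE ρ (σ ⟨e, he⟩), rho_eq (F := F) h2 hsqE ρ ⟨e, he⟩]
      apply Finset.sum_congr rfl
      intro m _
      by_cases hm : P F ρ m = 0
      · rw [hm, smul_zero, smul_zero]
      · have h4 := hτ m ⟨e, he⟩
        rw [hcon m hm] at h4
        rw [h4]
    have h4 : yh * e * yh⁻¹ = e := by
      apply Subtype.ext
      apply Units.ext
      exact h3
    rw [mul_inv_eq_iff_eq_mul] at h4
    rw [← hyh, ← map_mul, ← map_mul, h4]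
  have hper : Function.minimalPeriod τ l = p := by
    have h3 : Function.IsPeriodicPt τ p l := hτp l
    rcases (Nat.dvd_prime hp).1 h3.minimalPeriod_dvd with h4 | h4
    · exfalso
      apply hlτ
      have h5 := Function.isPeriodicPt_minimalPeriod τ l
      rw [h4] at h5
      exact h5
    · exact h4
  let Q : ZMod p → R := fun i => P F ρ (τ^[i.val] l)
  have hPne : ∀ n : ℕ, P F ρ (τ^[n] l) ≠ 0 := by
    intro n
    induction n with
    | zero => exact hl
    | succ n ih =>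
      rw [Function.iterate_succ_apply']
      intro h3
      rw [← hPτ] at h3
      apply ih
      calc P F ρ (τ^[n] l) = (Z * Y) * P F ρ (τ^[n] l) * (Z * Y) := by rw [hZY, one_mul, mul_one]
        _ = Z * (Y * P F ρ (τ^[n] l) * Z) * Y := by simp only [mul_assoc]
        _ = 0 := by rw [h3, mul_zero, zero_mul]
  have hcy : Cyc Q Y Z := by
    refine ⟨fun i => P_mul_P_same h2 hsqE ρ _, fun i j hij => P_mul_P_ne ρ ?_, ?_, hYZ, hZY, ?_⟩
    · intro h3
      apply hij
      have h4 := Function.iterate_injOn_Iio_minimalPeriod (f := τ) (x := l)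
        (Set.mem_Iio.2 (by rw [hper]; exact ZMod.val_lt i))
        (Set.mem_Iio.2 (by rw [hper]; exact ZMod.val_lt j)) h3
      exact ZMod.val_injective p h4
    · intro i h3
      apply hPne i.val
      have h4 : ((2 : ℤ) : F) • P F ρ (τ^[i.val] l) = 0 := by
        rw [Int.cast_smul_eq_zsmul]; exact h3
      rcases smul_eq_zero.1 h4 with h5 | h5
      · exact absurd (by exact_mod_cast h5) h2
      · exact h5
    · intro i
      show Y * P F ρ (τ^[i.val] l) * Z = P F ρ (τ^[(i + 1).val] l)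
      rw [hPτ, ← Function.iterate_succ_apply' τ]
      congr 1
      have h3 : Function.IsPeriodicPt τ p l := hτp l
      have h4 : (i + 1).val = (i.val + 1) % p := by
        rw [ZMod.val_add, ZMod.val_one_eq_one_mod, Nat.add_mod_mod]
      rw [h4, h3.iterate_mod_apply]
  -- the sign elements
  have hDsq : ∀ c, D hcy c * D hcy c = 1 := by
    intro c
    rw [← map_mul]
    have : c * c = 1 := by
      funext i
      exact Int.units_mul_self (c i)
    rw [this, map_one]
  have hDI : ∀ c, D hcy c ∈ I := by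
    intro c
    apply hI {e | ∃ x ∈ E, (x : Rˣ) = e} _ (D hcy c) (hDsq c)
    · intro A hA hEA
      have hE1 : ∀ e : E, ρ e ∈ A := fun e => hEA _ ⟨e, e.2, rfl⟩
      have h1A : (1 : R) ∈ A := by
        have := hE1 1
        rwa [map_one] at this
      have hPA : ∀ m : Dl E, P F ρ m ∈ A := by
        intro m
        have : Fact (Nat.Prime 2) := ⟨Nat.prime_two⟩
        have h3 : IsPGroup 2 E := fun e => ⟨1, by rw [pow_one, pow_two, hsqE]⟩
        obtain ⟨n, hn⟩ := IsPGroup.iff_card.1 h3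
        apply mem_of_two_pow hA n
        have h4 : (2 ^ n : ℕ) • P F ρ m = ∑ e : E, ((m e : ℤˣ) : ℤ) • ρ e := by
          unfold P
          rw [← hn, ← Nat.cast_smul_eq_nsmul F, smul_smul,
            mul_inv_cancel₀ (card_ne_zero (F := F) h2 hsqE), one_smul]
        rw [h4]
        exact A.sum_mem fun e _ => A.zsmul_mem (hE1 e) _
      show D0 Q c ∈ A
      unfold D0
      exact A.add_mem h1A (A.sum_mem fun i _ => A.zsmul_mem (hPA _) _)
    · rintro _ ⟨x, hx, rfl⟩
      exact ⟨hLI x.2, congrArg Subtype.val hx.2⟩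
  have hYu : ∀ c, ((yh : L) : Rˣ) * D hcy c * ((yh : L) : Rˣ)⁻¹ = D hcy (shift c) := by
    intro c
    apply Units.ext
    exact conj_D0 hcy c
  have hDL : ∀ c, D hcy (c * (shift c)⁻¹) ∈ L := by
    intro c
    have h3 : D hcy (c * (shift c)⁻¹) =
        (D hcy c * ((yh : L) : Rˣ) * (D hcy c)⁻¹) * ((yh⁻¹ : L) : Rˣ) := by
      rw [map_mul, map_inv, ← hYu]
      show D hcy c * (((yh : L) : Rˣ) * D hcy c * ((yh : L) : Rˣ)⁻¹)⁻¹ =
        (D hcy c * ((yh : L) : Rˣ) * (D hcy c)⁻¹) * ((yh : L) : Rˣ)⁻¹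
      group
    rw [h3]
    exact L.mul_mem (hLn _ (hDI c) _ yh.2) (yh⁻¹ : L).2
  -- these commute with `E`
  have hQρ : ∀ (i : ZMod p) (e : E), Q i * ρ e = ρ e * Q i := by
    intro i e
    show P F ρ _ * ρ e = ρ e * P F ρ _
    rw [P_mul_rho, rho_mul_P]
  have hDρ : ∀ c (e : E), D0 Q c * ρ e = ρ e * D0 Q c := by
    intro c e
    unfold D0
    rw [add_mul, mul_add, one_mul, mul_one, Finset.sum_mul, Finset.mul_sum]
    congr 1
    apply Finset.sum_congr rfl
    intro i _
    rw [smul_mul_assoc, mul_smul_comm, hQρ]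
  let T := {i : ZMod p // i ≠ 0} → ℤˣ
  let ext : T → (ZMod p → ℤˣ) := fun t i => if h : i = 0 then 1 else t ⟨i, h⟩
  have hext0 : ∀ t, ext t 0 = 1 := fun t => dif_pos rfl
  have hexti : ∀ (t : T) (i : {i : ZMod p // i ≠ 0}), ext t i = t i := fun t i => dif_neg i.2
  let ψ : T → Subgroup.centralizer (V : Set K) := fun t =>
    ⟨π ⟨D hcy (ext t * (shift (ext t))⁻¹), hDL _⟩, by
      rw [Subgroup.mem_centralizer_iff]
      intro v hv
      obtain ⟨e, he, rfl⟩ := hEV v hv
      rw [← map_mul, ← map_mul]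
      congr 1
      apply Subtype.ext
      apply Units.ext
      exact (hDρ _ ⟨e, he⟩).symm⟩
  have hψ : Function.Injective ψ := by
    intro t t' htt
    have h3 : π ⟨D hcy (ext t * (shift (ext t))⁻¹), hDL _⟩ =
        π ⟨D hcy (ext t' * (shift (ext t'))⁻¹), hDL _⟩ := congrArg Subtype.val htt
    set c := ext t * (ext t')⁻¹ with hc
    have hc0 : c 0 = 1 := by
      rw [hc, Pi.mul_apply, Pi.inv_apply, hext0, hext0]
      rfl
    have h4 : c * (shift c)⁻¹ =
        (ext t * (shift (ext t))⁻¹) * (ext t' * (shift (ext t'))⁻¹)⁻¹ := by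
      have h5 : shift c = shift (ext t) * (shift (ext t'))⁻¹ := rfl
      rw [h5, hc]
      funext i
      simp only [Pi.mul_apply, Pi.inv_apply]
      generalize ext t i = a1
      generalize ext t' i = a2
      generalize shift (ext t) i = a3
      generalize shift (ext t') i = a4
      revert a1 a2 a3 a4
      decide
    have h5 : π ⟨D hcy (c * (shift c)⁻¹), hDL c⟩ = 1 := by
      have h6 : (⟨D hcy (c * (shift c)⁻¹), hDL c⟩ : L) =
          ⟨D hcy (ext t * (shift (ext t))⁻¹), hDL _⟩ *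
          (⟨D hcy (ext t' * (shift (ext t'))⁻¹), hDL _⟩ : L)⁻¹ := by
        apply Subtype.ext
        show D hcy (c * (shift c)⁻¹) = D hcy _ * (D hcy _)⁻¹
        rw [h4, map_mul, map_inv]
      rw [h6, map_mul, map_inv, h3, mul_inv_cancel]
    have h6 := hker _ h5 yh
    have h7 : c = 1 := by
      apply eq_one_of_comm hcy hp2 hc0
      have h8 : D0 Q (c * (shift c)⁻¹) * Y = Y * D0 Q (c * (shift c)⁻¹) :=
        congrArg (fun z : L => ((z : Rˣ) : R)) h6
      rw [← h8, mul_assoc, hYZ, mul_one]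
    funext i
    have h8 := congrFun h7 (i : ZMod p)
    rw [hc, Pi.mul_apply, Pi.inv_apply, hexti, hexti, Pi.one_apply, mul_inv_eq_one] at h8
    exact h8
  have h3 := Nat.card_le_card_of_injective ψ hψ
  have h4 : Nat.card T = 2 ^ (p - 1) := by
    have h5 : Nat.card {i : ZMod p // i ≠ 0} = p - 1 := by
      rw [Nat.card_eq_fintype_card, Fintype.card_subtype_compl, ZMod.card]
      simp
    have h6 : Nat.card ℤˣ = 2 := by rw [Nat.card_eq_fintype_card]; rfl
    show Nat.card ({i : ZMod p // i ≠ 0} → ℤˣ) = 2 ^ (p - 1)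
    rw [Nat.card_fun, h6, h5]
  rw [← h4]
  exact h3

end Cfsg.Agent.H338.RingCL
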